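import Cfsg.Agent.H9.GolMod
set_option autoImplicit false

/-! Abstract self-dual codes of length 24 and minimum weight 8. -/

namespace Cfsg.Agent.H9
open Cfsg

abbrev V24 := Fin 24 → ZMod 2

def chf (A : Finset (Fin 24)) : V24 := fun p => if p ∈ A then 1 else 0

theorem chf_support (w : V24) : chf (support₂ w) = w := by
  funext p
  unfold chf
  have hm : p ∈ support₂ w ↔ w p ≠ 0 := by simp [support₂]
  rcases zmod2_cases (w p) with h | h
  · rw [if_neg (by rw [hm]; exact fun hh => hh h), h]
  · rw [if_pos (by rw [hm, h]; exact one_ne_zero), h]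

theorem support_chf (A : Finset (Fin 24)) : support₂ (chf A) = A := by
  ext p
  simp only [support₂, Finset.mem_filter, Finset.mem_univ, true_and]
  unfold chf
  split_ifs with h <;> simp [h]

theorem chf_add (A B : Finset (Fin 24)) : chf A + chf B = chf (symmDiff A B) := by
  funext p
  rw [Pi.add_apply]
  unfold chf
  by_cases h1 : p ∈ A <;> by_cases h2 : p ∈ B <;> simp [h1, h2, Finset.mem_symmDiff]
  decide

theorem hn_eq (w : V24) : hammingNorm w = (support₂ w).card := rfl

theorem sdc (A C : Finset (Fin 24)) : (symmDiff A C).card + 2 * (A ∩ C).card = A.card + C.card := by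
  have e1 : symmDiff A C = (A \ C) ∪ (C \ A) := rfl
  rw [e1, Finset.card_union_of_disjoint (by
    rw [Finset.disjoint_left]; intro x hx hx'
    exact (Finset.mem_sdiff.1 hx).2 (Finset.mem_sdiff.1 hx').1)]
  have e2 := Finset.card_sdiff_add_card_inter A C
  have e3 := Finset.card_sdiff_add_card_inter C A
  rw [Finset.inter_comm C A] at e3
  omega

structure AG (C : Submodule (ZMod 2) V24) : Prop where
  dim : Module.finrank (ZMod 2) C = 12
  orth : ∀ v ∈ C, ∀ w ∈ C, ∑ i, v i * w i = 0
  min : ∀ w ∈ C, w ≠ 0 → 8 ≤ hammingNorm w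

variable {C : Submodule (ZMod 2) V24}

theorem AG.card (h : AG C) : Nat.card (V24 ⧸ C) = 4096 := by
  have h1 : Nat.card C = 2 ^ 12 := by
    rw [← h.dim, Module.natCard_eq_pow_finrank (K := ZMod 2)]
    simp
  have h2 : Nat.card V24 = 2 ^ 24 := by
    rw [Nat.card_eq_fintype_card]
    simp
  have h3 := C.card_eq_card_quotient_mul_card
  rw [h1, h2] at h3
  omega

theorem AG.min' (h : AG C) {A : Finset (Fin 24)} (hA : chf A ∈ C) : A = ∅ ∨ 8 ≤ A.card := by
  by_cases h0 : chf A = 0
  · left
    rw [← support_chf A, h0]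
    ext p; simp [support₂]
  · right
    have := h.min _ hA h0
    rwa [hn_eq, support_chf] at this

theorem AG.even (h : AG C) {A : Finset (Fin 24)} (hA : chf A ∈ C) : 2 ∣ A.card := by
  have h1 := h.orth _ hA _ hA
  have h2 : ∀ i, chf A i * chf A i = if i ∈ A then (1 : ZMod 2) else 0 := by
    intro i; unfold chf; split_ifs <;> simp
  rw [Finset.sum_congr rfl (fun i _ => h2 i), Finset.sum_boole] at h1
  simp only [Finset.filter_univ_mem] at h1
  exact (ZMod.natCast_eq_zero_iff _ _).1 h1

theorem sd_mem {A B : Finset (Fin 24)} (hA : chf A ∈ C) (hB : chf B ∈ C) : chf (symmDiff A B) ∈ C := by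
  rw [← chf_add]; exact C.add_mem hA hB

theorem mk_iff {A B : Finset (Fin 24)} : (Submodule.Quotient.mk (chf A) : V24 ⧸ C) = Submodule.Quotient.mk (chf B) ↔ chf (symmDiff A B) ∈ C := by
  rw [Submodule.Quotient.eq, ← chf_add]
  have : chf A - chf B = chf A + chf B := by
    funext p
    rw [Pi.sub_apply, Pi.add_apply]
    have : ∀ x y : ZMod 2, x - y = x + y := by decide
    exact this _ _
  rw [this]

/-- every word is congruent to one of weight at most four -/
theorem AG.cover (h : AG C) (A : Finset (Fin 24)) : ∃ B : Finset (Fin 24), B.card ≤ 4 ∧ chf (symmDiff A B) ∈ C := by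
  classical
  obtain ⟨f, hf⟩ : ∃ f : Finset (Fin 24) → V24 ⧸ C, f = fun A => Submodule.Quotient.mk (chf A) := ⟨_, rfl⟩
  haveI : Finite (V24 ⧸ C) := Nat.finite_of_card_ne_zero (by rw [h.card]; norm_num)
  haveI : Fintype (V24 ⧸ C) := Fintype.ofFinite _
  obtain ⟨T, hT⟩ : ∃ T : Finset (Finset (Fin 24)), T = (Finset.range 4).biUnion fun k => (Finset.univ : Finset (Fin 24)).powersetCard k := ⟨_, rfl⟩
  have hTm : ∀ A, A ∈ T → A.card ≤ 3 := by
    intro A hA
    rw [hT, Finset.mem_biUnion] at hA
    obtain ⟨k, hk, hA⟩ := hA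
    have := (Finset.mem_powersetCard.1 hA).2
    rw [Finset.mem_range] at hk
    omega
  have hTc : T.card = 2325 := by
    rw [hT, Finset.card_biUnion]
    · simp only [Finset.card_powersetCard, Finset.card_univ, Fintype.card_fin]
      decide
    · intro i _ j _ hij
      rw [Function.onFun, Finset.disjoint_left]
      intro a ha ha'
      exact hij ((Finset.mem_powersetCard.1 ha).2.symm.trans (Finset.mem_powersetCard.1 ha').2)
  have hinj : Set.InjOn f T := by
    intro a ha b hb hab
    rw [hf] at hab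
    have h1 := mk_iff.1 hab
    have h2 := sdc a b
    have h3 := hTm a (Finset.mem_coe.1 ha)
    have h4 := hTm b (Finset.mem_coe.1 hb)
    rcases h.min' h1 with h5 | h5
    · exact symmDiff_eq_bot.1 h5
    · omega
  have h1 : (T.image f).card = 2325 := by rw [Finset.card_image_of_injOn hinj, hTc]
  obtain ⟨U, hU⟩ : ∃ U : Finset (Finset (Fin 24)), U = (Finset.univ : Finset (Fin 24)).powersetCard 4 := ⟨_, rfl⟩
  have hUm : ∀ A, A ∈ U → A.card = 4 := by
    intro A hA
    rw [hU] at hA
    exact (Finset.mem_powersetCard.1 hA).2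
  have hUc : U.card = 10626 := by
    rw [hU, Finset.card_powersetCard, Finset.card_univ, Fintype.card_fin]; decide
  have hfib : ∀ q ∈ U.image f, (U.filter fun A => f A = q).card ≤ 6 := by
    intro q _
    have hd : (((U.filter fun A => f A = q) : Finset (Finset (Fin 24))) : Set (Finset (Fin 24))).PairwiseDisjoint id := by
      intro a ha b hb hab
      rw [Finset.mem_coe, Finset.mem_filter] at ha hb
      have h2 : f a = f b := ha.2.trans hb.2.symm
      rw [hf] at h2
      have h3 := mk_iff.1 h2
      have h4 := sdc a b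
      have h5 := hUm a ha.1
      have h6 := hUm b hb.1
      rcases h.min' h3 with h7 | h7
      · exact absurd (symmDiff_eq_bot.1 h7) hab
      · have : (a ∩ b).card = 0 := by omega
        exact Finset.disjoint_iff_inter_eq_empty.2 (Finset.card_eq_zero.1 this)
    have e1 := Finset.card_biUnion (s := U.filter fun A => f A = q) (t := id) hd
    rw [Finset.sum_congr rfl (fun T hT => hUm _ (Finset.mem_filter.1 hT).1 : ∀ T ∈ (U.filter fun A => f A = q), (id T : Finset (Fin 24)).card = 4),
      Finset.sum_const, smul_eq_mul] at e1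
    have e2 := Finset.card_le_univ ((U.filter fun A => f A = q).biUnion id)
    rw [Fintype.card_fin] at e2
    omega
  have h2 : 1771 ≤ (U.image f).card := by
    have := Finset.card_le_mul_card_image U 6 hfib
    rw [hUc] at this
    omega
  have h3 : Disjoint (T.image f) (U.image f) := by
    rw [Finset.disjoint_left]
    intro q hq hq'
    obtain ⟨a, ha, rfl⟩ := Finset.mem_image.1 hq
    obtain ⟨b, hb, hab⟩ := Finset.mem_image.1 hq'
    rw [hf] at hab
    have h4 := mk_iff.1 hab
    have h5 := sdc b a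
    have h6 := hTm a ha
    have h7 := hUm b hb
    rcases h.min' h4 with h8 | h8
    · rw [symmDiff_eq_bot.1 h8] at h7; omega
    · omega
  have h4 : T.image f ∪ U.image f = Finset.univ := by
    apply Finset.eq_univ_of_card
    apply le_antisymm (Finset.card_le_univ _)
    rw [Finset.card_union_of_disjoint h3, h1, ← Nat.card_eq_fintype_card, h.card]
    omega
  have h5 : f A ∈ T.image f ∪ U.image f := by rw [h4]; exact Finset.mem_univ _
  rw [Finset.mem_union] at h5
  rcases h5 with h5 | h5
  · obtain ⟨b, hb, hab⟩ := Finset.mem_image.1 h5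
    refine ⟨b, by have := hTm b hb; omega, ?_⟩
    rw [hf] at hab
    exact mk_iff.1 hab.symm
  · obtain ⟨b, hb, hab⟩ := Finset.mem_image.1 h5
    refine ⟨b, by have := hUm b hb; omega, ?_⟩
    rw [hf] at hab
    exact mk_iff.1 hab.symm

theorem AG.five (h : AG C) {A : Finset (Fin 24)} (hA : A.card = 5) : ∃ O : Finset (Fin 24), O.card = 8 ∧ chf O ∈ C ∧ A ⊆ O := by
  obtain ⟨B, hB, hm⟩ := h.cover A
  have h1 := sdc A B
  have h2 := h.even hm
  have h3 : 8 ≤ (symmDiff A B).card := by
    rcases h.min' hm with h3 | h3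
    · exfalso
      have := symmDiff_eq_bot.1 h3
      rw [this] at hA; omega
    · exact h3
  refine ⟨symmDiff A B, by omega, hm, ?_⟩
  have h4 : (A ∩ B).card = 0 := by omega
  have h5 := Finset.disjoint_iff_inter_eq_empty.2 (Finset.card_eq_zero.1 h4)
  intro x hx
  exact Finset.mem_symmDiff.2 (Or.inl ⟨hx, fun hh => Finset.disjoint_left.1 h5 hx hh⟩)

theorem AG.mem_words (b : Finset (Fin 24)) : b ∈ wordsOfWeight (C : Set V24) 8 ↔ chf b ∈ C ∧ b.card = 8 := by
  constructor
  · rintro ⟨⟨w, hw, rfl⟩, h8⟩
    exact ⟨by rw [chf_support]; exact hw, h8⟩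
  · rintro ⟨h1, h8⟩
    exact ⟨⟨chf b, h1, support_chf b⟩, h8⟩

theorem AG.steiner (h : AG C) : (∃ w ∈ C, hammingNorm w = 8) ∧ IsSteinerSystem 5 8 (wordsOfWeight (C : Set V24) 8) := by
  constructor
  · obtain ⟨O, h8, hO, _⟩ := h.five (A := {0, 1, 2, 3, 4}) (by decide)
    exact ⟨chf O, hO, by rw [hn_eq, support_chf, h8]⟩
  · refine ⟨fun b hb => ((AG.mem_words b).1 hb).2, fun s hs => ?_⟩
    obtain ⟨O, h8, hO, hsO⟩ := h.five hs
    refine ⟨O, ⟨(AG.mem_words O).2 ⟨hO, h8⟩, hsO⟩, ?_⟩
    rintro O' ⟨hO', hsO'⟩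
    obtain ⟨k1, k2⟩ := (AG.mem_words O').1 hO'
    have h1 := sdc O' O
    have h2 := Finset.card_le_card (Finset.subset_inter hsO' hsO)
    rcases h.min' (sd_mem k1 hO) with h3 | h3
    · exact symmDiff_eq_bot.1 h3
    · omega

theorem AG.span (h : AG C) : Submodule.span (ZMod 2) {w : V24 | w ∈ C ∧ hammingNorm w = 8} = C := by
  apply le_antisymm
  · rw [Submodule.span_le]
    intro w hw; exact hw.1
  · have key : ∀ n : ℕ, ∀ A : Finset (Fin 24), A.card = n → chf A ∈ C → chf A ∈ Submodule.span (ZMod 2) {w : V24 | w ∈ C ∧ hammingNorm w = 8} := by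
      intro n
      induction n using Nat.strong_induction_on with
      | _ n ih =>
        intro A hA hAC
        rcases h.min' hAC with h0 | h8
        · rw [h0]
          have : chf ∅ = 0 := by funext p; simp [chf]
          rw [this]; exact Submodule.zero_mem _
        · obtain ⟨s, hs, hs5⟩ := Finset.exists_subset_card_eq (s := A) (n := 5) (by omega)
          obtain ⟨O, hO8, hO, hsO⟩ := h.five hs5
          have h1 := sdc A O
          have h2 := Finset.card_le_card (Finset.subset_inter hs hsO)
          have h3 := ih (symmDiff A O).card (by omega) _ rfl (sd_mem hAC hO)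
          have h4 : chf O ∈ Submodule.span (ZMod 2) {w : V24 | w ∈ C ∧ hammingNorm w = 8} :=
            Submodule.subset_span ⟨hO, by rw [hn_eq, support_chf, hO8]⟩
          have h5 := sd_mem h3 h4
          rwa [symmDiff_assoc, symmDiff_self, symmDiff_bot] at h5
    intro w hw
    rw [← chf_support w] at hw ⊢
    exact key _ _ rfl hw

end Cfsg.Agent.H9
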