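import Cfsg.Agent.H9.AbsGolay
set_option autoImplicit false

/-! Abstract self-dual codes: doubly even, coset leaders. -/

namespace Cfsg.Agent.H9
open Cfsg

variable {C : Submodule (ZMod 2) V24}

theorem AG.inter (h : AG C) {A B : Finset (Fin 24)} (hA : chf A ∈ C) (hB : chf B ∈ C) : 2 ∣ (A ∩ B).card := by
  have h1 := h.orth _ hA _ hB
  have h2 : ∀ i, chf A i * chf B i = if i ∈ A ∩ B then (1 : ZMod 2) else 0 := by
    intro i; unfold chf
    by_cases a : i ∈ A <;> by_cases b : i ∈ B <;> simp [a, b]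
  rw [Finset.sum_congr rfl (fun i _ => h2 i), Finset.sum_boole] at h1
  simp only [Finset.filter_univ_mem] at h1
  exact (ZMod.natCast_eq_zero_iff _ _).1 h1

theorem AG.four (h : AG C) : ∀ n : ℕ, ∀ A : Finset (Fin 24), A.card = n → chf A ∈ C → 4 ∣ A.card := by
  intro n
  induction n using Nat.strong_induction_on with
  | _ n ih =>
    intro A hA hAC
    rcases h.min' hAC with h0 | h8
    · rw [h0]; simp
    · obtain ⟨s, hs, hs5⟩ := Finset.exists_subset_card_eq (s := A) (n := 5) (by omega)
      obtain ⟨O, hO8, hO, hsO⟩ := h.five hs5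
      have h1 := sdc A O
      have h2 := Finset.card_le_card (Finset.subset_inter hs hsO)
      have h3 := ih (symmDiff A O).card (by omega) _ rfl (sd_mem hAC hO)
      have h4 := h.inter hAC hO
      omega

theorem AG.tet_disj (h : AG C) {T T' : Finset (Fin 24)} (hT : T.card ≤ 4) (hT' : T'.card ≤ 4) (hm : chf (symmDiff T T') ∈ C) (hne : T ≠ T') :
    T.card = 4 ∧ T'.card = 4 ∧ Disjoint T T' := by
  have h1 := sdc T T'
  rcases h.min' hm with h2 | h2
  · exact absurd (symmDiff_eq_bot.1 h2) hne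
  · exact ⟨by omega, by omega, Finset.disjoint_iff_inter_eq_empty.2 (Finset.card_eq_zero.1 (by omega))⟩

theorem AG.tet_ex (h : AG C) {A : Finset (Fin 24)} (hA : A.card = 4) (p : Fin 24) : ∃ T : Finset (Fin 24), T.card = 4 ∧ p ∈ T ∧ chf (symmDiff T A) ∈ C := by
  by_cases hp : p ∈ A
  · refine ⟨A, hA, hp, ?_⟩
    rw [symmDiff_self]
    have : chf (⊥ : Finset (Fin 24)) = 0 := by funext q; simp [chf]
    rw [this]; exact C.zero_mem
  · obtain ⟨O, hO8, hO, hsO⟩ := h.five (A := insert p A) (by rw [Finset.card_insert_of_notMem hp, hA])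
    have hAO : A ⊆ O := (Finset.subset_insert p A).trans hsO
    refine ⟨O \ A, by rw [Finset.card_sdiff_of_subset hAO, hO8, hA], Finset.mem_sdiff.2 ⟨hsO (Finset.mem_insert_self p A), hp⟩, ?_⟩
    have e : symmDiff (O \ A) A = O := by
      ext x
      rw [Finset.mem_symmDiff, Finset.mem_sdiff]
      constructor
      · rintro (⟨k, _⟩ | ⟨k, _⟩)
        · exact k.1
        · exact hAO k
      · intro hx
        by_cases hh : x ∈ A
        · exact Or.inr ⟨hh, fun k => k.2 hh⟩
        · exact Or.inl ⟨⟨hx, hh⟩, hh⟩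
    rw [e]
    exact hO

theorem sub_mem_iff {A B : Finset (Fin 24)} : chf A - chf B ∈ C ↔ chf (symmDiff A B) ∈ C := by
  rw [← mk_iff, Submodule.Quotient.eq]

theorem chf_inj {A B : Finset (Fin 24)} (h : chf A = chf B) : A = B := by
  rw [← support_chf A, h, support_chf]

theorem AG.leaders (h : AG C) (w : V24) : (∃ u : V24, {u : V24 | u - w ∈ C ∧ hammingNorm u ≤ 4} = {u} ∧ hammingNorm u ≤ 3) ∨
    ({u : V24 | u - w ∈ C ∧ hammingNorm u ≤ 4}.ncard = 6 ∧ ∀ u ∈ {u : V24 | u - w ∈ C ∧ hammingNorm u ≤ 4}, hammingNorm u = 4 ∧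
      ∀ u' ∈ {u : V24 | u - w ∈ C ∧ hammingNorm u ≤ 4}, u ≠ u' → Disjoint (Finset.univ.filter fun i => u i ≠ 0) (Finset.univ.filter fun i => u' i ≠ 0)) := by
  obtain ⟨B, hB, hm⟩ := h.cover (support₂ w)
  -- the set in terms of supports
  have hset : ∀ u : V24, (u - w ∈ C ∧ hammingNorm u ≤ 4) ↔ (chf (symmDiff (support₂ u) B) ∈ C ∧ (support₂ u).card ≤ 4) := by
    intro u
    rw [hn_eq]
    refine and_congr_left fun _ => ?_
    have e : u - w = chf (support₂ u) - chf (support₂ w) := by rw [chf_support, chf_support]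
    rw [e, sub_mem_iff]
    have e2 : symmDiff (symmDiff (support₂ u) (support₂ w)) (symmDiff (support₂ w) B) = symmDiff (support₂ u) B := by
      rw [symmDiff_assoc, ← symmDiff_assoc (support₂ w), symmDiff_self, bot_symmDiff]
    have e3 : symmDiff (symmDiff (support₂ u) B) (symmDiff (support₂ w) B) = symmDiff (support₂ u) (support₂ w) := by
      rw [symmDiff_symmDiff_symmDiff_comm, symmDiff_self, symmDiff_bot]
    constructor
    · intro hh; rw [← e2]; exact sd_mem hh hm
    · intro hh; rw [← e3]; exact sd_mem hh hm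
  have hBB : chf (symmDiff B B) ∈ C := by
    rw [symmDiff_self]
    have : chf (⊥ : Finset (Fin 24)) = 0 := by funext q; simp [chf]
    rw [this]; exact C.zero_mem
  by_cases h3 : B.card ≤ 3
  · left
    refine ⟨chf B, ?_, by rw [hn_eq, support_chf]; exact h3⟩
    ext u
    rw [Set.mem_setOf_eq, hset, Set.mem_singleton_iff]
    constructor
    · rintro ⟨h1, h2⟩
      by_contra hne
      have hne' : support₂ u ≠ B := fun hh => hne (by rw [← hh, chf_support])
      have := (h.tet_disj h2 (by omega) h1 hne').2.1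
      omega
    · rintro rfl
      rw [support_chf]
      exact ⟨hBB, by omega⟩
  · right
    have h4 : B.card = 4 := by omega
    have hcard : ∀ T : Finset (Fin 24), T.card ≤ 4 → chf (symmDiff T B) ∈ C → T.card = 4 := by
      intro T hT hm
      by_cases hTB : T = B
      · rw [hTB, h4]
      · exact (h.tet_disj hT (by omega) hm hTB).1
    have hpair : ∀ T T' : Finset (Fin 24), T.card ≤ 4 → T'.card ≤ 4 → chf (symmDiff T B) ∈ C → chf (symmDiff T' B) ∈ C → T ≠ T' → Disjoint T T' := by
      intro T T' hT hT' k1 k2 hne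
      refine (h.tet_disj hT hT' ?_ hne).2.2
      have e := sd_mem k1 k2
      rwa [symmDiff_symmDiff_symmDiff_comm, symmDiff_self, symmDiff_bot] at e
    refine ⟨?_, ?_⟩
    · classical
      obtain ⟨F, hF⟩ : ∃ F : Finset (Finset (Fin 24)), F = Finset.univ.filter fun T => T.card ≤ 4 ∧ chf (symmDiff T B) ∈ C := ⟨_, rfl⟩
      have hFm : ∀ T, T ∈ F ↔ T.card ≤ 4 ∧ chf (symmDiff T B) ∈ C := fun T => by rw [hF]; simp
      have e1 : {u : V24 | u - w ∈ C ∧ hammingNorm u ≤ 4}.ncard = F.card := by
        rw [← Set.ncard_coe_finset]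
        refine Set.ncard_congr (fun u _ => support₂ u) ?_ ?_ ?_
        · intro u hu
          rw [Finset.mem_coe, hFm]
          have := (hset u).1 hu
          exact ⟨this.2, this.1⟩
        · intro u u' _ _ he
          rw [← chf_support u, he, chf_support]
        · intro T hT
          rw [Finset.mem_coe, hFm] at hT
          exact ⟨chf T, (hset _).2 (by rw [support_chf]; exact ⟨hT.2, hT.1⟩), support_chf T⟩
      rw [e1]
      have e2 : (F.biUnion id).card = ∑ T ∈ F, T.card := Finset.card_biUnion (fun T hT T' hT' hne => by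
        rw [Finset.mem_coe, hFm] at hT hT'
        exact hpair T T' hT.1 hT'.1 hT.2 hT'.2 hne)
      rw [Finset.sum_congr rfl (fun T hT => hcard T ((hFm T).1 hT).1 ((hFm T).1 hT).2), Finset.sum_const, smul_eq_mul] at e2
      have e3 : F.biUnion id = Finset.univ := by
        rw [Finset.eq_univ_iff_forall]
        intro p
        obtain ⟨T, hT, hp, hTm⟩ := h.tet_ex h4 p
        exact Finset.mem_biUnion.2 ⟨T, (hFm T).2 ⟨by omega, hTm⟩, hp⟩
      rw [e3, Finset.card_univ, Fintype.card_fin] at e2
      omega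
    · intro u hu
      have hu' := (hset u).1 hu
      refine ⟨by rw [hn_eq]; exact hcard _ hu'.2 hu'.1, ?_⟩
      intro u' hu2 hne
      have hu2' := (hset u').1 hu2
      have hne' : support₂ u ≠ support₂ u' := fun hh => hne (by rw [← chf_support u, hh, chf_support])
      exact hpair _ _ hu'.2 hu2'.2 hu'.1 hu2'.1 hne'

end Cfsg.Agent.H9
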