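import Cfsg.Agent.H9.M11Two
import Cfsg.Agent.H9.SixSet
set_option autoImplicit false

/-! Commuting elements of orders 3 and 2. -/

namespace Cfsg.Agent.H9
open Cfsg
open scoped Pointwise

theorem fx_inv (g : Equiv.Perm GolayPt) : fx g⁻¹ = fx g := by
  ext p
  rw [mem_fx, mem_fx, Equiv.Perm.inv_eq_iff_eq]
  exact eq_comm

theorem octS_mem {E : Finset GolayPt} {g : Equiv.Perm GolayPt} : g ∈ octS E ↔ g ∈ M24 ∧ g • E = E := Iff.rfl

theorem smul_fx_comm {x s : Equiv.Perm GolayPt} (hc : s * x = x * s) : s • fx x = fx x := by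
  have : s * x * s⁻¹ = x := by rw [hc]; group
  rw [← fx_conj, this]

theorem no_ff {x s : Equiv.Perm GolayPt} (hx : x ∈ M24) (hs : s ∈ M24) (h3 : x ^ 3 = 1) (hx1 : x ≠ 1) (hf : ∃ p, x p = p)
    (h2 : s ^ 2 = 1) (hc : s * x = x * s) (hsf : ∀ p, s p ≠ p) : False := by
  have hE : (fx x).card = 6 := fx_card_3 hx h3 hx1 hf
  have hord : orderOf x = 3 := orderOf_eq_prime h3 hx1
  -- an inverting element
  obtain ⟨u, hu, hux⟩ := conj_3A hx h3 hx1 hf
  obtain ⟨v, hv, hvx⟩ := conj_3A (M24.inv_mem hx) (by rw [inv_pow, h3, inv_one]) (by rwa [Ne, inv_eq_one])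
    (by obtain ⟨p, hp⟩ := hf; exact ⟨p, by rw [Equiv.Perm.inv_eq_iff_eq]; exact hp.symm⟩)
  obtain ⟨w, hw⟩ : ∃ w, w = v⁻¹ * u := ⟨_, rfl⟩
  have hwM : w ∈ M24 := by rw [hw]; exact M24.mul_mem (M24.inv_mem hv) hu
  have hwx : w * x * w⁻¹ = x⁻¹ := by
    have e : w * x * w⁻¹ = v⁻¹ * (u * x * u⁻¹) * v := by rw [hw]; group
    rw [e, hux, ← hvx]; group
  -- the pointwise stabiliser
  obtain ⟨P, hP⟩ : ∃ P, P = M24 ⊓ fixingSubgroup (Equiv.Perm GolayPt) (fx x : Set GolayPt) := ⟨_, rfl⟩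
  have hPm : ∀ g, g ∈ P ↔ g ∈ M24 ∧ ∀ p ∈ fx x, g p = p := fun g => by rw [hP, Subgroup.mem_inf, mem_fixing]
  have hxP : x ∈ P := (hPm x).2 ⟨hx, fun p hp => mem_fx.1 hp⟩
  have hPc : Nat.card P = Nat.card {g : Equiv.Perm GolayPt // g ∈ M24 ∧ ∀ p ∈ fx x, g p = p} :=
    Nat.card_congr (Equiv.subtypeEquivRight fun g => hPm g)
  have hoct : ¬ ∃ o ∈ octads, fx x ⊆ o := by
    intro ho
    rw [(six_main hE).2.1 ho] at hPc
    have := orderOf_dvd_natCard (⟨x, hxP⟩ : P)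
    rw [Subgroup.orderOf_mk, hord, hPc] at this
    norm_num at this
  rw [((six_main hE).2.2 hoct).1] at hPc
  have hPz : P = Subgroup.zpowers x := by
    symm
    apply Subgroup.eq_of_le_of_card_ge (by rw [Subgroup.zpowers_le]; exact hxP)
    rw [hPc, Nat.card_zpowers, hord]
  have hx' : ∀ y ∈ P, y = 1 ∨ y = x ∨ y = x⁻¹ := by
    intro y hy
    rw [hPz, ← mem_powers_iff_mem_zpowers, mem_powers_iff_mem_range_orderOf, hord, Finset.mem_image] at hy
    obtain ⟨k, hk, rfl⟩ := hy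
    rw [Finset.mem_range] at hk
    interval_cases k
    · left; exact pow_zero x
    · right; left; exact pow_one x
    · right; right
      rw [eq_inv_iff_mul_eq_one, ← pow_succ]; exact h3
  have hxx : x ≠ x⁻¹ := by
    intro h
    have h4 : x ^ 2 = 1 := by rw [sq]; nth_rw 2 [h]; exact mul_inv_cancel x
    apply hx1
    have : x = x ^ 3 * (x ^ 2)⁻¹ := by group
    rw [this, h3, h4, inv_one, one_mul]
  -- the setwise stabiliser
  have hsO : s ∈ octS (fx x) := octS_mem.2 ⟨hs, smul_fx_comm hc⟩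
  have hwO : w ∈ octS (fx x) := octS_mem.2 ⟨hwM, by rw [← fx_conj, hwx, fx_inv]⟩
  obtain ⟨ρ, hρ⟩ : ∃ ρ, ρ = resHom (octS (fx x)) (fx x) octS_fix := ⟨_, rfl⟩
  have hρa : ∀ (g : octS (fx x)) (p : ↥(fx x)), ((ρ g p : ↥(fx x)) : GolayPt) = (g : Equiv.Perm GolayPt) p := by
    intro g p; rw [hρ]; rfl
  have hker : ∀ g : octS (fx x), ρ g = 1 → (g : Equiv.Perm GolayPt) ∈ P := by
    intro g hg
    rw [hPm]
    refine ⟨g.2.1, fun p hp => ?_⟩
    have := hρa g ⟨p, hp⟩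
    rw [hg] at this
    exact this.symm
  have hconj : ∀ h : octS (fx x), (h : Equiv.Perm GolayPt) * x * (h : Equiv.Perm GolayPt)⁻¹ = x ∨ (h : Equiv.Perm GolayPt) * x * (h : Equiv.Perm GolayPt)⁻¹ = x⁻¹ := by
    intro h
    have h1 : (h : Equiv.Perm GolayPt) * x * (h : Equiv.Perm GolayPt)⁻¹ ∈ P := by
      rw [hPm]
      refine ⟨conj_mem hx h.2.1, fun p hp => ?_⟩
      rw [← mem_fx, fx_conj, show (h : Equiv.Perm GolayPt) • fx x = fx x from h.2.2]
      exact hp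
    rcases hx' _ h1 with k | k
    · exfalso
      apply hx1
      have : x = (h : Equiv.Perm GolayPt)⁻¹ * ((h : Equiv.Perm GolayPt) * x * (h : Equiv.Perm GolayPt)⁻¹) * (h : Equiv.Perm GolayPt) := by group
      rw [this, k]; group
    · exact k
  obtain ⟨D, hD⟩ : ∃ D : Subgroup (Equiv.Perm ↥(fx x)), D = (Subgroup.centralizer {(⟨x, octS_mem.2 ⟨hx, smul_fx_comm rfl⟩⟩ : octS (fx x))}).map ρ := ⟨_, rfl⟩
  have hDm : ∀ h : octS (fx x), ρ h ∈ D ↔ (h : Equiv.Perm GolayPt) * x * (h : Equiv.Perm GolayPt)⁻¹ = x := by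
    intro h
    rw [hD]
    constructor
    · rintro ⟨k, hk, hkh⟩
      rw [SetLike.mem_coe, Subgroup.mem_centralizer_singleton_iff] at hk
      have hk' : (k : Equiv.Perm GolayPt) * x = x * (k : Equiv.Perm GolayPt) := congrArg Subtype.val hk
      have h1 : ρ (k⁻¹ * h) = 1 := by rw [map_mul, map_inv, hkh, inv_mul_cancel]
      have h2 := hker _ h1
      have hz : (h : Equiv.Perm GolayPt) = (k : Equiv.Perm GolayPt) * ((k⁻¹ * h : octS (fx x)) : Equiv.Perm GolayPt) := by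
        change _ = (k : Equiv.Perm GolayPt) * ((k : Equiv.Perm GolayPt)⁻¹ * (h : Equiv.Perm GolayPt)); group
      have hzc : ((k⁻¹ * h : octS (fx x)) : Equiv.Perm GolayPt) * x = x * ((k⁻¹ * h : octS (fx x)) : Equiv.Perm GolayPt) := by
        rcases hx' _ h2 with e | e | e <;> rw [e]
        · rw [one_mul, mul_one]
        · rw [inv_mul_cancel, mul_inv_cancel]
      rw [mul_inv_eq_iff_eq_mul, hz, mul_assoc, hzc, ← mul_assoc, hk', mul_assoc]
    · intro hh
      refine ⟨h, ?_, rfl⟩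
      rw [SetLike.mem_coe, Subgroup.mem_centralizer_singleton_iff]
      apply Subtype.ext
      exact mul_inv_eq_iff_eq_mul.1 hh
  have hsurj : Function.Surjective ρ := by
    intro σ
    obtain ⟨g, hg, hgσ⟩ := (six_main hE).1 σ
    have hgE : g • fx x = fx x := by
      apply Finset.eq_of_subset_of_card_le
      · intro p hp
        obtain ⟨q, hq, rfl⟩ := Finset.mem_smul_finset.1 hp
        have := hgσ ⟨q, hq⟩
        change g q ∈ fx x
        rw [this]
        exact (σ _).2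
      · rw [Finset.card_smul_finset]
    refine ⟨⟨g, octS_mem.2 ⟨hg, hgE⟩⟩, ?_⟩
    apply Equiv.ext
    intro p
    apply Subtype.ext
    rw [hρa]
    exact hgσ p
  have hidx : D.index = 2 := by
    rw [Subgroup.index_eq_two_iff]
    refine ⟨ρ ⟨w, hwO⟩, fun b => ?_⟩
    obtain ⟨h, rfl⟩ := hsurj b
    rw [← map_mul, hDm, hDm]
    have e : ((h * ⟨w, hwO⟩ : octS (fx x)) : Equiv.Perm GolayPt) * x * ((h * ⟨w, hwO⟩ : octS (fx x)) : Equiv.Perm GolayPt)⁻¹ =
        ((h : Equiv.Perm GolayPt) * x * (h : Equiv.Perm GolayPt)⁻¹)⁻¹ := by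
      change ((h : Equiv.Perm GolayPt) * w) * x * ((h : Equiv.Perm GolayPt) * w)⁻¹ = _
      have e1 : ((h : Equiv.Perm GolayPt) * w) * x * ((h : Equiv.Perm GolayPt) * w)⁻¹ = (h : Equiv.Perm GolayPt) * (w * x * w⁻¹) * (h : Equiv.Perm GolayPt)⁻¹ := by group
      rw [e1, hwx]; group
    rw [e]
    rcases hconj h with k | k
    · right
      exact ⟨k, by rw [k]; exact fun hh => hxx hh.symm⟩
    · left
      rw [k, inv_inv]
      exact ⟨rfl, fun hh => hxx hh.symm⟩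
  have hDalt := Equiv.Perm.eq_alternatingGroup_of_index_eq_two hidx
  have hsD : ρ ⟨s, hsO⟩ ∈ D := by
    rw [hDm]
    change s * x * s⁻¹ = x
    rw [hc]; group
  rw [hDalt, Equiv.Perm.mem_alternatingGroup, Equiv.Perm.sign_of_pow_two_eq_one (by
    rw [← map_pow]
    have : (⟨s, hsO⟩ : octS (fx x)) ^ 2 = 1 := Subtype.ext h2
    rw [this, map_one]), Fintype.card_coe, hE] at hsD
  have hfp : Fintype.card (Function.fixedPoints (ρ ⟨s, hsO⟩)) = 0 := by
    rw [Fintype.card_eq_zero_iff]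
    refine ⟨fun p => ?_⟩
    have h1 : ρ ⟨s, hsO⟩ p.1 = p.1 := p.2
    have h2 := hρa ⟨s, hsO⟩ p.1
    rw [h1] at h2
    exact hsf _ h2.symm
  rw [hfp] at hsD
  have : ((-1 : ℤˣ)) ^ ((6 - 0) / 2) ≠ 1 := by decide
  exact this hsD

theorem comm_main {x s : Equiv.Perm GolayPt} (hx : x ∈ M24) (hs : s ∈ M24) (h3 : orderOf x = 3) (h2 : orderOf s = 2) (hc : Commute x s) :
    ((fx x).card = 6 ∧ (fx s).card = 8) ∨ ((fx x).card = 0 ∧ (fx s).card = 0) := by
  have hx3 : x ^ 3 = 1 := by rw [← h3]; exact pow_orderOf_eq_one x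
  have hs2 : s ^ 2 = 1 := by rw [← h2]; exact pow_orderOf_eq_one s
  have hx1 : x ≠ 1 := by rintro rfl; rw [orderOf_one] at h3; norm_num at h3
  have hs1 : s ≠ 1 := by rintro rfl; rw [orderOf_one] at h2; norm_num at h2
  by_cases hf : ∃ p, x p = p
  · left
    refine ⟨fx_card_3 hx hx3 hx1 hf, ?_⟩
    by_cases hg : ∃ p, s p = p
    · exact fx_card_2 hs hs2 hs1 hg
    · push Not at hg
      exact (no_ff hx hs hx3 hx1 hf hs2 hc.symm.eq hg).elim
  · right
    push Not at hf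
    have h0 : (fx x).card = 0 := by
      rw [Finset.card_eq_zero, Finset.eq_empty_iff_forall_notMem]
      intro p hp
      exact hf p (mem_fx.1 hp)
    refine ⟨h0, ?_⟩
    by_contra hne
    obtain ⟨p, hp⟩ := Finset.card_pos.1 (Nat.pos_of_ne_zero hne)
    have h8 := fx_card_2 hs hs2 hs1 ⟨p, mem_fx.1 hp⟩
    have hinv : ∀ y, x y ∈ fx s ↔ y ∈ fx s := by
      intro y
      have hcs : ∀ z, x (s z) = s (x z) := fun z => by
        rw [← Equiv.Perm.mul_apply, ← Equiv.Perm.mul_apply, hc.eq]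
      rw [mem_fx, mem_fx, ← hcs]
      exact x.injective.eq_iff
    haveI : Fact (Nat.Prime 3) := ⟨Nat.prime_three⟩
    obtain ⟨a, ha⟩ := Equiv.Perm.exists_fixed_point_of_prime (p := 3) (n := 1) (α := {y : GolayPt // y ∈ fx s})
      (by rw [Fintype.card_coe, h8]; norm_num) (σ := x.subtypePerm hinv) (by
        rw [pow_one, Equiv.Perm.subtypePerm_pow]
        apply Equiv.ext
        intro y
        apply Subtype.ext
        rw [Equiv.Perm.subtypePerm_apply]
        change (x ^ 3) (y : GolayPt) = y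
        rw [hx3]; rfl)
    exact hf a.1 (congrArg Subtype.val ha)

end Cfsg.Agent.H9
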