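import Cfsg.Agent.H9.OctG2
set_option autoImplicit false

/-! Hexads of a dodecad. -/

namespace Cfsg.Agent.H9
open Cfsg
open scoped Pointwise

theorem hexD_ok : allR (fun k => @Bool.rec (fun _ => Bool) true
    (allN (fun x => @Bool.rec (fun _ => Bool) true
      (@Bool.rec (fun _ => Bool) true (Nat.beq x (bs 6)) (Nat.beq (imgM (tr 6 x) (enc k)) (enc k)))
      (Nat.beq (bt (orb 6) x) 1)) 24)
    (band (Nat.beq (pc (enc k)) 12) (band (Nat.beq (pc (Nat.land (enc k) (bsMask 6))) 6) (Nat.beq (pc (Nat.land (enc k) oct0)) 6)))) 12 0 = true := by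
  decide +kernel

theorem bsMask6_pc : pc (bsMask 6) = 6 := by decide +kernel

theorem kernD {o d : Finset GolayPt} (ho : o ∈ octads) (hd : d ∈ dodecads) (h6 : (o ∩ d).card = 6) {g : Equiv.Perm GolayPt} (hg : g ∈ M24)
    (h3 : g • d = d) (hfix : ∀ p ∈ o ∩ d, g p = p) : g = 1 := by
  obtain ⟨x, x1, x2, x3⟩ := exists_enum h6
  obtain ⟨u, hu, hux⟩ := frame_in ho Finset.inter_subset_left x x1 x2
  have hB6 : ((Finset.range 6).image B).card = 6 := by
    rw [Finset.card_image_of_injOn, Finset.card_range]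
    intro i hi j hj h
    simp only [Finset.coe_range, Set.mem_Iio] at hi hj
    by_contra hij
    rcases lt_or_gt_of_ne hij with h' | h'
    · exact B_ne (by omega) h' h.symm
    · exact B_ne (by omega) h' h
  have huo : u • o = S oct0 := by
    refine octad_eq_of_inter (smul_mem_weight hu ho) oct0_mem ?_
    have : (Finset.range 6).image B ⊆ u • o ∩ S oct0 := by
      intro p hp
      obtain ⟨i, hi, rfl⟩ := Finset.mem_image.1 hp
      rw [Finset.mem_range] at hi
      rw [Finset.mem_inter]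
      refine ⟨?_, B_mem_oct0 hi⟩
      have := hux i hi
      unfold C1 at this
      rw [← this]
      exact Finset.mem_smul_finset.2 ⟨x i, (Finset.mem_inter.1 (x1 i hi)).1, rfl⟩
    have := Finset.card_le_card this
    omega
  have hy : u • d ∈ dodecads := smul_mem_weight hu hd
  obtain ⟨k, hk, hk8, hyk⟩ := mem_dodecads_iff.1 hy
  have c1 : (u • o ∩ u • d).card = 6 := by rw [smul_inter_card, h6]
  rw [huo, hyk, Finset.inter_comm, pc_and] at c1
  have c2 : pc (Nat.land (enc k) (bsMask 6)) = 6 := by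
    have e : S (enc k) ∩ S (bsMask 6) = S (bsMask 6) := by
      rw [Finset.inter_eq_right]
      intro p hp
      rw [mem_bsMask (by norm_num)] at hp
      obtain ⟨i, hi, rfl⟩ := hp
      rw [← hyk]
      have h5 := hux i hi
      unfold C1 at h5
      rw [← h5]
      exact Finset.mem_smul_finset.2 ⟨x i, (Finset.mem_inter.1 (x1 i hi)).2, rfl⟩
    have e2 := congrArg Finset.card e
    rw [pc_and, card_S, bsMask6_pc] at e2
    exact e2
  obtain ⟨g', hg'⟩ : ∃ g', g' = u * g * u⁻¹ := ⟨_, rfl⟩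
  have hgM : g' ∈ M24 := by rw [hg']; exact M24.mul_mem (M24.mul_mem hu hg) (M24.inv_mem hu)
  have hg6 : g' ∈ Hc 6 := mem_Hc.2 ⟨hgM, fun j hj => by
    have h5 := hux j hj
    unfold C1 at h5
    rw [hg', Equiv.Perm.mul_apply, Equiv.Perm.mul_apply, ← h5, show u⁻¹ (u (x j)) = x j by simp, hfix _ (x1 j hj)]⟩
  have hgy : g' • S (enc k) = S (enc k) := by
    rw [← hyk, hg', mul_smul, mul_smul, inv_smul_smul, h3]
  obtain ⟨t, ht, ht1, ht2, ht3⟩ := Hc6_elt hg6
  rw [ht3, smul_S (checkM24_perm ht2)] at hgy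
  have hm := S_inj (imgM_lt (checkM24_perm ht2) _) (enc_lt k) hgy
  have hx := allR_spec hexD_ok k (by omega) (by omega)
  have hb : band (Nat.beq (pc (enc k)) 12) (band (Nat.beq (pc (Nat.land (enc k) (bsMask 6))) 6) (Nat.beq (pc (Nat.land (enc k) oct0)) 6)) = true := by
    rw [band_iff, band_iff, beq_iff, beq_iff, beq_iff]
    exact ⟨hk8, c2, c1⟩
  rw [hb] at hx
  have hx2 := (allN_iff _ _).1 hx t ht
  rw [bt_eq_one ht1] at hx2
  have hm' : Nat.beq (imgM (tr 6 t) (enc k)) (enc k) = true := by rw [hm]; exact Nat.beq_refl _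
  rw [hm'] at hx2
  have hx3 : t = bs 6 := Nat.eq_of_beq_eq_true hx2
  obtain ⟨_, q1, _⟩ := tr_spec (by norm_num) ht ht1
  have hg7 : g' ∈ Hc 7 := mem_Hc.2 ⟨hgM, fun j hj => by
    by_cases h6 : j < 6
    · exact (mem_Hc.1 hg6).2 j h6
    · have : j = 6 := by omega
      subst this
      rw [ht3]
      change toPerm (tr 6 t) (pt (bs 6)) = pt (bs 6)
      rw [q1, hx3]⟩
  rw [Hc7, Subgroup.mem_bot] at hg7
  have e : g = u⁻¹ * g' * u := by rw [hg']; group
  rw [e, hg7]; group

theorem c132 : (cnt fun k => band (Nat.beq (pc (enc k)) 8) (Nat.beq (pc (Nat.land (enc k) dod0)) 6)) = 132 := by decide +kernel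

theorem hex_joint {o d : Finset GolayPt} (ho : o ∈ octads) (hd : d ∈ dodecads) (h6 : (o ∩ d).card = 6) :
    Nat.card ↥(MulAction.stabilizer M24 d ⊓ MulAction.stabilizer M24 (o ∩ d)) = 720 := by
  have he : MulAction.stabilizer M24 d ⊓ MulAction.stabilizer M24 (o ∩ d) = MulAction.stabilizer M24 d ⊓ MulAction.stabilizer M24 o := by
    ext g
    rw [Subgroup.mem_inf, Subgroup.mem_inf]
    refine and_congr_right fun hgd => ?_
    have hgd' : (g : Equiv.Perm GolayPt) • d = d := hgd
    constructor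
    · intro h
      have h' : (g : Equiv.Perm GolayPt) • (o ∩ d) = o ∩ d := h
      change (g : Equiv.Perm GolayPt) • o = o
      refine octad_eq_of_inter (smul_mem_weight g.2 ho) ho ?_
      have : o ∩ d ⊆ (g : Equiv.Perm GolayPt) • o ∩ o := by
        intro p hp
        rw [Finset.mem_inter]
        refine ⟨?_, (Finset.mem_inter.1 hp).1⟩
        rw [← h', Finset.smul_finset_inter] at hp
        exact (Finset.mem_inter.1 hp).1
      have := Finset.card_le_card this
      omega
    · intro h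
      have h' : (g : Equiv.Perm GolayPt) • o = o := h
      change (g : Equiv.Perm GolayPt) • (o ∩ d) = o ∩ d
      rw [Finset.smul_finset_inter, h', hgd']
  rw [he]
  have h := card_inf_stab (MulAction.stabilizer M24 d) o
  rw [card_dod_stab hd] at h
  have h2 : MulAction.orbit (MulAction.stabilizer M24 d) o = {x | x ∈ wordsOfWeight (golayCode : Set (GolayPt → ZMod 2)) 8 ∧ (d ∩ x).card = 6} := by
    ext x
    constructor
    · rintro ⟨g, rfl⟩
      have hgo : ((g : M24) : Equiv.Perm GolayPt) • d = d := g.2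
      refine ⟨smul_mem_weight (g : M24).2 ho, ?_⟩
      have := smul_inter_card ((g : M24) : Equiv.Perm GolayPt) d o
      rw [hgo, Finset.inter_comm d o, h6] at this
      exact this
    · rintro ⟨hx, hc⟩
      obtain ⟨g, hg, h1, h2⟩ := dod_words_trans hd ho.1 hx.1 (by rw [ho.2, hx.2]) (by rw [Finset.inter_comm, h6, hc])
      exact ⟨⟨⟨g, hg⟩, h1⟩, h2⟩
  rw [h2, dod_count hd, c132] at h
  omega

theorem hex_main {d C : Finset GolayPt} (hd : d ∈ dodecads) (hC : C ∈ hexadsOn d) :
    Nonempty (↥(MulAction.stabilizer M24 d ⊓ MulAction.stabilizer M24 C) ≃* Equiv.Perm (Fin 6)) ∧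
    (∀ g ∈ MulAction.stabilizer M24 d ⊓ MulAction.stabilizer M24 C, (∀ p ∈ C, ((g : ↥M24) : Equiv.Perm GolayPt) p = p) → g = 1) ∧
    ∀ g ∈ MulAction.stabilizer M24 d ⊓ MulAction.stabilizer M24 C, (∀ p ∈ d \ C, ((g : ↥M24) : Equiv.Perm GolayPt) p = p) → g = 1 := by
  obtain ⟨h6, o, ho, hoC⟩ := hC
  have h6' : (o ∩ d).card = 6 := by rw [hoC, h6]
  have hf1 : ∀ g ∈ MulAction.stabilizer M24 d ⊓ MulAction.stabilizer M24 C, (∀ p ∈ C, ((g : ↥M24) : Equiv.Perm GolayPt) p = p) → g = 1 := by
    intro g hg hfix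
    exact Subtype.ext (kernD ho hd h6' g.2 hg.1 (by rw [hoC]; exact hfix))
  refine ⟨?_, hf1, ?_⟩
  · obtain ⟨J, hJ⟩ : ∃ J, J = MulAction.stabilizer M24 d ⊓ MulAction.stabilizer M24 C := ⟨_, rfl⟩
    have hJc : Nat.card J = 720 := by rw [hJ, ← hoC]; exact hex_joint ho hd h6'
    have hKE : ∀ g ∈ J.map M24.subtype, g • C = C := by
      rintro _ ⟨g, hg, rfl⟩
      rw [SetLike.mem_coe, hJ] at hg
      exact hg.2
    have hinj : Function.Injective (resHom (J.map M24.subtype) C hKE) := by
      rw [injective_iff_map_eq_one]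
      intro g hg
      obtain ⟨k, hk, hkg⟩ := g.2
      rw [SetLike.mem_coe, hJ] at hk
      have h1 := hf1 k hk fun p hp => by
        have := congrArg (fun f : Equiv.Perm ↥C => ((f ⟨p, hp⟩ : ↥C) : GolayPt)) hg
        change (g : Equiv.Perm GolayPt) p = p at this
        rw [← hkg] at this
        exact this
      apply Subtype.ext
      rw [← hkg, h1]; rfl
    have hcK : Nat.card (J.map M24.subtype) = 720 := by
      rw [← hJc]
      exact (Nat.card_congr (J.equivMapOfInjective _ M24.subtype_injective).toEquiv).symm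
    have hcE : Nat.card (Equiv.Perm ↥C) = 720 := by
      rw [Nat.card_eq_fintype_card, Fintype.card_perm, Fintype.card_coe, h6]; rfl
    have hbij : Function.Bijective (resHom (J.map M24.subtype) C hKE) :=
      (Nat.bijective_iff_injective_and_card _).2 ⟨hinj, by rw [hcK, hcE]⟩
    have e1 := (J.equivMapOfInjective _ M24.subtype_injective).trans (MulEquiv.ofBijective _ hbij)
    have e2 : ↥C ≃ Fin 6 := Fintype.equivFinOfCardEq (by rw [Fintype.card_coe, h6])
    rw [← hJ]
    exact ⟨e1.trans e2.permCongrHom⟩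
  · intro g hg hfix
    have ho2 : symmDiff d o ∈ octads := by
      refine ⟨code_sd hd.1 ho.1, ?_⟩
      have := sd_card' d o
      rw [dodecad_card hd, octad_card ho, Finset.inter_comm, h6'] at this
      omega
    have e : symmDiff d o ∩ d = d \ C := by
      rw [← hoC]
      ext p
      simp only [Finset.mem_inter, Finset.mem_symmDiff, Finset.mem_sdiff]
      tauto
    have hc : (symmDiff d o ∩ d).card = 6 := by
      rw [e]
      have := Finset.card_sdiff_add_card_inter d C
      have e2 : d ∩ C = C := by rw [← hoC]; ext p; simp only [Finset.mem_inter]; tauto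
      rw [e2, h6, dodecad_card hd] at this
      omega
    exact Subtype.ext (kernD ho2 hd hc g.2 hg.1 (by rw [e]; exact hfix))

end Cfsg.Agent.H9
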