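import Cfsg.Agent.H9.GolMod
set_option autoImplicit false

/-! Invariant subspaces of the space of all words. -/

namespace Cfsg.Agent.H9
open Cfsg
open scoped Pointwise

theorem exists_pair {W : Submodule (ZMod 2) (GolayPt → ZMod 2)} (h : PInv W) (hn : ¬ W ≤ golayCode) :
    ∃ x y, x ≠ y ∧ ch {x, y} ∈ W := by
  obtain ⟨w, hw, hwn⟩ := SetLike.not_le_iff_exists.1 hn
  obtain ⟨A, hA4, hA⟩ := small_rep _ (support₂ w) rfl
  rw [← ch_support w] at hw hwn
  obtain ⟨S', hS⟩ : ∃ S', S' = support₂ w := ⟨_, rfl⟩
  rw [← hS] at hw hwn hA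
  have hA0 : A.Nonempty := by
    rw [Finset.nonempty_iff_ne_empty]
    rintro rfl
    rw [show (∅ : Finset GolayPt) = ⊥ from rfl, symmDiff_bot] at hA
    exact hwn (ch_mem.2 hA)
  obtain ⟨a, ha⟩ := hA0
  obtain ⟨b, hb⟩ : ∃ b, b ∉ A := by
    by_contra hh
    push Not at hh
    have : A = Finset.univ := Finset.eq_univ_of_forall hh
    rw [this, Finset.card_univ, card_pt] at hA4
    omega
  have hab : a ≠ b := fun h => hb (h ▸ ha)
  obtain ⟨σ, hσ, h1, h2⟩ := move_pt (A := A.erase a) ((Finset.card_erase_le).trans hA4) (Finset.notMem_erase a A) (b := b)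
    (fun hh => hb (Finset.mem_of_mem_erase hh))
  have hσA : symmDiff A (σ • A) = {a, b} := by
    have e : ∀ p, p ∈ σ • A ↔ (p = b ∨ (p ∈ A ∧ p ≠ a)) := by
      intro p
      rw [Finset.mem_smul_finset]
      constructor
      · rintro ⟨q, hq, rfl⟩
        by_cases hqa : q = a
        · left; rw [hqa]; exact h1
        · right
          have := h2 q (Finset.mem_erase.2 ⟨hqa, hq⟩)
          change σ q ∈ A ∧ σ q ≠ a
          rw [this]
          exact ⟨hq, hqa⟩
      · rintro (rfl | ⟨hp, hpa⟩)
        · exact ⟨a, ha, h1⟩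
        · exact ⟨p, hp, h2 p (Finset.mem_erase.2 ⟨hpa, hp⟩)⟩
    ext p
    rw [Finset.mem_symmDiff, e, Finset.mem_insert, Finset.mem_singleton]
    constructor
    · rintro (⟨k1, k2⟩ | ⟨k1, k2⟩)
      · by_contra hh
        push Not at hh
        exact k2 (Or.inr ⟨k1, hh.1⟩)
      · rcases k1 with k1 | k1
        · exact Or.inr k1
        · exact absurd k1.1 k2
    · rintro (rfl | rfl)
      · exact Or.inl ⟨ha, by rintro (k | k); exacts [hab k, k.2 rfl]⟩
      · exact Or.inr ⟨Or.inl rfl, hb⟩
  obtain ⟨D, hD⟩ : ∃ D, D = symmDiff S' (σ • S') := ⟨_, rfl⟩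
  have hDW : ch D ∈ W := by rw [hD]; exact ch_sd hw (h.ch hσ hw)
  obtain ⟨c, hc⟩ : ∃ c, c = symmDiff D {a, b} := ⟨_, rfl⟩
  have hcs : c ∈ supports (golayCode : Set (GolayPt → ZMod 2)) := by
    have e : c = symmDiff (symmDiff S' A) (σ • symmDiff S' A) := by
      rw [hc, hD, ← hσA, smul_sd]
      exact symmDiff_symmDiff_symmDiff_comm _ _ _ _
    rw [e]
    exact code_sd hA (M24_supp hσ hA)
  have hDc : D = symmDiff c {a, b} := by rw [hc, symmDiff_assoc, symmDiff_self, symmDiff_bot]
  by_cases h0 : c = ∅
  · refine ⟨a, b, hab, ?_⟩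
    rw [hDc, h0, show (∅ : Finset GolayPt) = ⊥ from rfl, bot_symmDiff] at hDW
    exact hDW
  · by_cases hu : c = Finset.univ
    · obtain ⟨d, hd⟩ : ∃ d, d ∉ ({a, b} : Finset GolayPt) := by
        by_contra hh
        push Not at hh
        have e : ({a, b} : Finset GolayPt) = Finset.univ := Finset.eq_univ_of_forall hh
        have e2 := Finset.card_le_two (a := a) (b := b)
        rw [e, Finset.card_univ, card_pt] at e2
        omega
      rw [Finset.mem_insert, Finset.mem_singleton, not_or] at hd
      obtain ⟨τ, hτ, k1, k2⟩ := move_pt (A := {a}) (by simp) (a := b) (b := d) (by simpa using hab.symm) (by simpa using hd.1)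
      refine ⟨b, d, fun h => hd.2 h.symm, ?_⟩
      have e : symmDiff D (τ • D) = {b, d} := by
        rw [hDc, hu, smul_sd, Finset.smul_finset_univ, symmDiff_symmDiff_symmDiff_comm, symmDiff_self, bot_symmDiff]
        have e3 : τ • ({a, b} : Finset GolayPt) = {a, d} := by
          ext p
          rw [Finset.mem_smul_finset]
          simp only [Finset.mem_insert, Finset.mem_singleton]
          constructor
          · rintro ⟨q, hq | hq, rfl⟩
            · left; rw [hq]; exact k2 a (by simp)
            · right; rw [hq]; exact k1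
          · rintro (hp | hp)
            · exact ⟨a, Or.inl rfl, by rw [hp]; exact k2 a (by simp)⟩
            · exact ⟨b, Or.inr rfl, by rw [hp]; exact k1⟩
        rw [e3]
        ext p
        simp only [Finset.mem_symmDiff, Finset.mem_insert, Finset.mem_singleton]
        constructor
        · rintro (⟨q1 | q1, q2⟩ | ⟨q1 | q1, q2⟩)
          · exact absurd (Or.inl q1) q2
          · exact Or.inl q1
          · exact absurd (Or.inl q1) q2
          · exact Or.inr q1
        · rintro (q | q)
          · left
            refine ⟨Or.inr q, ?_⟩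
            rw [q]
            rintro (q' | q')
            · exact hab q'.symm
            · exact hd.2 q'.symm
          · right
            refine ⟨Or.inr q, ?_⟩
            rw [q]
            rintro (q' | q')
            · exact hd.1 q'
            · exact hd.2 q'
      rw [← e]
      exact ch_sd hDW (h.ch hτ hDW)
    · have hcc : 8 ≤ c.card ∧ c.card ≤ 16 := by
        rcases supp_card hcs with k | k | k | k | k
        · exact absurd (Finset.card_eq_zero.1 k) h0
        · omega
        · omega
        · omega
        · exact absurd (Finset.eq_univ_of_card _ (by rw [k, card_pt])) hu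
      have e2 := Finset.card_le_two (a := a) (b := b)
      have e3 := Finset.le_card_sdiff ({a, b} : Finset GolayPt) c
      obtain ⟨p, q, hp, hq, hpq⟩ := Finset.one_lt_card_iff.1 (show 1 < (c \ {a, b}).card by omega)
      rw [Finset.mem_sdiff] at hp hq
      obtain ⟨r, hr⟩ : ∃ r, r ∉ c ∪ {a, b} := by
        by_contra hh
        push Not at hh
        have e : c ∪ {a, b} = Finset.univ := Finset.eq_univ_of_forall hh
        have e4 := Finset.card_union_le c {a, b}
        rw [e, Finset.card_univ, card_pt] at e4
        omega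
      rw [Finset.mem_union, not_or] at hr
      have hne : ∀ x, x ∉ ({a, b} : Finset GolayPt) → x ≠ p → x ∉ ({a, b, p} : Finset GolayPt) := by
        intro x h1 h2 h3
        simp only [Finset.mem_insert, Finset.mem_singleton] at h1 h3
        rcases h3 with h3 | h3 | h3
        · exact h1 (Or.inl h3)
        · exact h1 (Or.inr h3)
        · exact h2 h3
      obtain ⟨τ, hτ, k1, k2⟩ := move_pt (A := {a, b, p}) (Finset.card_le_three.trans (by norm_num)) (a := q) (b := r)
        (hne q hq.2 hpq.symm) (hne r hr.2 (fun hh => hr.1 (hh ▸ hp.1)))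
      have e5 : τ • ({a, b} : Finset GolayPt) = {a, b} := by
        ext x
        rw [Finset.mem_smul_finset]
        simp only [Finset.mem_insert, Finset.mem_singleton]
        constructor
        · rintro ⟨y, hy | hy, rfl⟩
          · left; rw [hy]; exact k2 a (by simp)
          · right; rw [hy]; exact k2 b (by simp)
        · rintro (hp | hp)
          · exact ⟨a, Or.inl rfl, by rw [hp]; exact k2 a (by simp)⟩
          · exact ⟨b, Or.inr rfl, by rw [hp]; exact k2 b (by simp)⟩
      have e6 : symmDiff D (τ • D) = symmDiff c (τ • c) := by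
        rw [hDc, smul_sd, e5, symmDiff_symmDiff_symmDiff_comm, symmDiff_self, symmDiff_bot]
      have e7 : ch (symmDiff c (τ • c)) ∈ W := by rw [← e6]; exact ch_sd hDW (h.ch hτ hDW)
      have hrr : r ∈ τ • c := Finset.mem_smul_finset.2 ⟨q, hq.1, k1⟩
      have hpp : p ∈ τ • c := Finset.mem_smul_finset.2 ⟨p, hp.1, k2 p (by simp)⟩
      have hle := code_le h (code_sd hcs (M24_supp hτ hcs)) (fun hh => by
        have : r ∈ symmDiff c (τ • c) := Finset.mem_symmDiff.2 (Or.inr ⟨hrr, hr.1⟩)
        rw [hh] at this; exact absurd this (Finset.notMem_empty _)) (fun hh => by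
        have : p ∈ symmDiff c (τ • c) := by rw [hh]; exact Finset.mem_univ _
        rcases Finset.mem_symmDiff.1 this with k | k
        · exact k.2 hpp
        · exact k.2 hp.1) e7
      refine ⟨a, b, hab, ?_⟩
      have e8 : ({a, b} : Finset GolayPt) = symmDiff D c := by
        rw [hDc, symmDiff_comm c {a, b}, symmDiff_assoc, symmDiff_self, symmDiff_bot]
      rw [e8]
      exact ch_sd hDW (hle (ch_mem.2 hcs))

theorem even_le {W : Submodule (ZMod 2) (GolayPt → ZMod 2)} (h : PInv W) {x y : GolayPt} (hxy : x ≠ y) (hW : ch {x, y} ∈ W) :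
    ∀ n : ℕ, ∀ A : Finset GolayPt, A.card = 2 * n → ch A ∈ W := by
  have h2 : ∀ p q : GolayPt, p ≠ q → ch {p, q} ∈ W := by
    intro p q hpq
    obtain ⟨σ, hσ, hσi⟩ := m24_transOn [x, y] [p, q] (by simp [hxy]) (by simp [hpq]) rfl (by simp) (fun _ _ => Finset.mem_univ _) (fun _ _ => Finset.mem_univ _)
    simp only [List.map_cons, List.map_nil, List.cons.injEq, and_true] at hσi
    have := h.ch hσ hW
    have e : σ • ({x, y} : Finset GolayPt) = {p, q} := by
      ext z
      rw [Finset.mem_smul_finset]
      simp only [Finset.mem_insert, Finset.mem_singleton]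
      constructor
      · rintro ⟨w, hw | hw, rfl⟩
        · left; rw [hw]; exact hσi.1
        · right; rw [hw]; exact hσi.2
      · rintro (hz | hz)
        · exact ⟨x, Or.inl rfl, by rw [hz]; exact hσi.1⟩
        · exact ⟨y, Or.inr rfl, by rw [hz]; exact hσi.2⟩
    rwa [e] at this
  intro n
  induction n with
  | zero =>
    intro A hA
    have e : A = ∅ := Finset.card_eq_zero.1 (by omega)
    rw [e, ch_empty]
    exact W.zero_mem
  | succ n ih =>
    intro A hA
    obtain ⟨p, q, hp, hq, hpq⟩ := Finset.one_lt_card_iff.1 (show 1 < A.card by omega)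
    have hsub : ({p, q} : Finset GolayPt) ⊆ A := by
      intro z hz
      rw [Finset.mem_insert, Finset.mem_singleton] at hz
      rcases hz with rfl | rfl
      · exact hp
      · exact hq
    have h3 := ih (A \ {p, q}) (by rw [Finset.card_sdiff_of_subset hsub, Finset.card_pair hpq]; omega)
    have h4 := ch_sd h3 (h2 p q hpq)
    have e : symmDiff (A \ {p, q}) {p, q} = A := by
      ext z
      rw [Finset.mem_symmDiff, Finset.mem_sdiff]
      constructor
      · rintro (⟨k, _⟩ | ⟨k, _⟩)
        · exact k.1
        · exact hsub k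
      · intro hz
        by_cases hh : z ∈ ({p, q} : Finset GolayPt)
        · exact Or.inr ⟨hh, fun k => k.2 hh⟩
        · exact Or.inl ⟨⟨hz, hh⟩, hh⟩
    rwa [e] at h4

theorem sum_ch (A : Finset GolayPt) : ∑ p, ch A p = (A.card : ZMod 2) := by
  unfold ch
  rw [Finset.sum_boole]
  simp

theorem inv_all {W : Submodule (ZMod 2) (GolayPt → ZMod 2)} (h : PInv W) : W = ⊥ ∨ W = Submodule.span (ZMod 2) {fun _ => (1 : ZMod 2)} ∨
    W = golayCode ∨ (W : Set (GolayPt → ZMod 2)) = {w | ∑ p, w p = 0} ∨ W = ⊤ := by
  by_cases hle : W ≤ golayCode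
  · rcases inv_sub h hle with k | k | k
    · exact Or.inl k
    · exact Or.inr (Or.inl k)
    · exact Or.inr (Or.inr (Or.inl k))
  · right; right; right
    obtain ⟨x, y, hxy, hW⟩ := exists_pair h hle
    have hev : ∀ w : GolayPt → ZMod 2, ∑ p, w p = 0 → w ∈ W := by
      intro w hw
      rw [← ch_support w] at hw ⊢
      rw [sum_ch, ZMod.natCast_eq_zero_iff] at hw
      obtain ⟨n, hn⟩ := hw
      exact even_le h hxy hW n _ hn
    by_cases ho : ∃ w ∈ W, ∑ p, w p ≠ 0
    · right
      obtain ⟨w0, hw0, h0⟩ := ho
      rw [eq_top_iff]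
      intro w _
      by_cases hw : ∑ p, w p = 0
      · exact hev w hw
      · have h1 : w + w0 ∈ W := by
          apply hev
          have : ∑ p, (w + w0) p = ∑ p, w p + ∑ p, w0 p := by
            rw [← Finset.sum_add_distrib]; rfl
          rw [this]
          rcases zmod2_cases (∑ p, w p) with k | k
          · exact absurd k hw
          · rcases zmod2_cases (∑ p, w0 p) with k' | k'
            · exact absurd k' h0
            · rw [k, k']; decide
        have := W.sub_mem h1 hw0
        rwa [add_sub_cancel_right] at this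
    · left
      push Not at ho
      ext w
      exact ⟨fun hw => ho w hw, fun hw => hev w hw⟩

end Cfsg.Agent.H9
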