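import Cfsg.Agent.H9.GolMod2
import Cfsg.Agent.H9.Dod
set_option autoImplicit false

/-! Stabilizers of words act fixed point freely on the cosets. -/

namespace Cfsg.Agent.H9
open Cfsg
open scoped Pointwise

/-- two-transitivity of the stabiliser of a word on its support, word of weight at most 12 or 24 -/
theorem two_trans_word {X : Finset GolayPt} (hX : X ∈ supports (golayCode : Set (GolayPt → ZMod 2))) (h0 : X.card ≠ 0) (h16 : X.card ≠ 16)
    {p q r : GolayPt} (hp : p ∈ X) (hq : q ∈ X) (hr : r ∈ X) (hpq : p ≠ q) (hpr : p ≠ r) : ∃ σ ∈ M24, σ • X = X ∧ σ p = p ∧ σ q = r := by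
  rcases supp_card hX with h | h | h | h | h
  · exact absurd h h0
  · have hO : X ∈ octads := ⟨hX, h⟩
    obtain ⟨g, hg, h1, h2⟩ := oct_frame 2 (by norm_num) hO (fun n => if n = 0 then p else q)
      (fun i hi => by interval_cases i <;> simp [hp, hq]) (fun i hi j hj => by
        interval_cases i
        · omega
        · interval_cases j; simpa using hpq.symm)
    obtain ⟨k, hk, h3, h4⟩ := oct_frame 2 (by norm_num) hO (fun n => if n = 0 then p else r)
      (fun i hi => by interval_cases i <;> simp [hp, hr]) (fun i hi j hj => by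
        interval_cases i
        · omega
        · interval_cases j; simpa using hpr.symm)
    refine ⟨k⁻¹ * g, M24.mul_mem (M24.inv_mem hk) hg, by rw [mul_smul, h1, ← h3, inv_smul_smul], ?_, ?_⟩
    · have e1 := h2 0 (by norm_num)
      have e2 := h4 0 (by norm_num)
      simp only [if_true] at e1 e2
      rw [Equiv.Perm.mul_apply, e1, ← e2]; simp
    · have e1 := h2 1 (by norm_num)
      have e2 := h4 1 (by norm_num)
      simp only [one_ne_zero, if_false] at e1 e2
      rw [Equiv.Perm.mul_apply, e1, ← e2]; simp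
  · obtain ⟨u, hu, hux⟩ := dodecad_trans (⟨hX, h⟩ : X ∈ dodecads) dod0_mem
    have hm : ∀ x ∈ X, u x ∈ S dod0 := fun x hx => by rw [← hux]; exact Finset.mem_smul_finset.2 ⟨x, hx, rfl⟩
    obtain ⟨g, hg, hgi⟩ := K12_transOn [u p, u q] [u p, u r] (by simp [hpq]) (by simp [hpr]) rfl (by simp)
      (by intro x hx; simp only [List.mem_cons, List.not_mem_nil, or_false] at hx; rcases hx with rfl | rfl; exacts [hm p hp, hm q hq])
      (by intro x hx; simp only [List.mem_cons, List.not_mem_nil, or_false] at hx; rcases hx with rfl | rfl; exacts [hm p hp, hm r hr])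
    simp only [List.map_cons, List.map_nil, List.cons.injEq, and_true] at hgi
    have hgS : g • S dod0 = S dod0 := hg.2
    refine ⟨u⁻¹ * (g * u), M24.mul_mem (M24.inv_mem hu) (M24.mul_mem hg.1 hu), ?_, ?_, ?_⟩
    · rw [mul_smul, mul_smul, hux, hgS, ← hux, inv_smul_smul]
    · rw [Equiv.Perm.mul_apply, Equiv.Perm.mul_apply, hgi.1]; simp
    · rw [Equiv.Perm.mul_apply, Equiv.Perm.mul_apply, hgi.2]; simp
  · exact absurd h h16
  · have hu : X = Finset.univ := Finset.eq_univ_of_card _ (by rw [h, card_pt])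
    obtain ⟨σ, hσ, hσi⟩ := m24_transOn [p, q] [p, r] (by simp [hpq]) (by simp [hpr]) rfl (by simp) (fun _ _ => Finset.mem_univ _) (fun _ _ => Finset.mem_univ _)
    simp only [List.map_cons, List.map_nil, List.cons.injEq, and_true] at hσi
    exact ⟨σ, hσ, by rw [hu, Finset.smul_finset_univ], hσi.1, hσi.2⟩

/-- transitivity of the stabiliser of a word on its support -/
theorem trans_word {X : Finset GolayPt} (hX : X ∈ supports (golayCode : Set (GolayPt → ZMod 2)))
    {a b : GolayPt} (ha : a ∈ X) (hb : b ∈ X) : ∃ σ ∈ M24, σ • X = X ∧ σ a = b := by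
  by_cases hab : a = b
  · exact ⟨1, M24.one_mem, by simp, by simp [hab]⟩
  by_cases h16 : X.card = 16
  · have hO : Xᶜ ∈ octads := ⟨supp_compl hX, by rw [Finset.card_compl, card_pt, h16]⟩
    obtain ⟨g, hg, h1, _, h5⟩ := oct_frame' 0 (by norm_num) hO (fun _ => a) (fun i hi => by omega) (fun i hi j hj => by omega)
      (q := a) (fun h => Finset.mem_compl.1 h ha)
    obtain ⟨k, hk, h3, _, h6⟩ := oct_frame' 0 (by norm_num) hO (fun _ => a) (fun i hi => by omega) (fun i hi j hj => by omega)
      (q := b) (fun h => Finset.mem_compl.1 h hb)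
    refine ⟨k⁻¹ * g, M24.mul_mem (M24.inv_mem hk) hg, ?_, ?_⟩
    · have e : (k⁻¹ * g) • Xᶜ = Xᶜ := by rw [mul_smul, h1, ← h3, inv_smul_smul]
      rw [smul_compl'] at e
      exact compl_injective e
    · rw [Equiv.Perm.mul_apply, h5, ← h6]; simp
  · have h0 : X.card ≠ 0 := fun h => by
      rw [Finset.card_eq_zero.1 h] at ha; exact absurd ha (Finset.notMem_empty _)
    obtain ⟨c, hc, hca, hcb⟩ : ∃ c ∈ X, c ≠ a ∧ c ≠ b := by
      by_contra hh
      push Not at hh
      have hs : X ⊆ {a, b} := by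
        intro x hx
        rw [Finset.mem_insert, Finset.mem_singleton]
        by_cases h : x = a
        · exact Or.inl h
        · exact Or.inr (hh x hx h)
      have e1 := Finset.card_le_card hs
      have e2 := Finset.card_le_two (a := a) (b := b)
      rcases supp_card hX with h | h | h | h | h <;> omega
    obtain ⟨σ, h1, h2, _, h3⟩ := two_trans_word hX h0 h16 hc ha hb hca hcb
    exact ⟨σ, h1, h2, h3⟩

theorem tet_disj {T T' : Finset GolayPt} (hT : T.card ≤ 4) (hT' : T'.card ≤ 4) (h : symmDiff T T' ∈ supports (golayCode : Set (GolayPt → ZMod 2)))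
    {p : GolayPt} (hp : p ∈ T) (hp' : p ∈ T') : T = T' := by
  have e1 : symmDiff T T' ⊆ (T ∪ T').erase p := by
    intro x hx
    rw [Finset.mem_erase, Finset.mem_union]
    rcases Finset.mem_symmDiff.1 hx with k | k
    · exact ⟨fun hh => k.2 (hh ▸ hp'), Or.inl k.1⟩
    · exact ⟨fun hh => k.2 (hh ▸ hp), Or.inr k.1⟩
  have e2 := Finset.card_le_card e1
  have e3 := Finset.card_union_le T T'
  rw [Finset.card_erase_of_mem (Finset.mem_union_left _ hp)] at e2
  have e4 := Finset.card_pos.2 ⟨p, Finset.mem_union_left T' hp⟩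
  have e5 : (symmDiff T T').card = 0 := by
    rcases supp_card h with k | k | k | k | k <;> omega
  exact symmDiff_eq_bot.1 (Finset.card_eq_zero.1 e5)

theorem tet_ex {A : Finset GolayPt} (hA : A.card = 4) (p : GolayPt) : ∃ T : Finset GolayPt, T.card = 4 ∧ p ∈ T ∧ symmDiff T A ∈ supports (golayCode : Set (GolayPt → ZMod 2)) := by
  by_cases hp : p ∈ A
  · refine ⟨A, hA, hp, ?_⟩
    rw [symmDiff_self, ← ch_mem]
    exact (ch_empty ▸ golayCode.zero_mem : ch ∅ ∈ golayCode)
  · obtain ⟨O, hO, hsO⟩ := octad_through (s := insert p A) (by rw [Finset.card_insert_of_notMem hp, hA])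
    have hAO : A ⊆ O := (Finset.subset_insert p A).trans hsO
    refine ⟨O \ A, by rw [Finset.card_sdiff_of_subset hAO, octad_card hO, hA], Finset.mem_sdiff.2 ⟨hsO (Finset.mem_insert_self p A), hp⟩, ?_⟩
    have e : symmDiff (O \ A) A = O := by
      ext x
      rw [Finset.mem_symmDiff, Finset.mem_sdiff]
      constructor
      · rintro (⟨k, _⟩ | ⟨k, _⟩)
        · exact k.1
        · exact hAO k
      · intro hx
        by_cases hh : x ∈ A
        · exact Or.inr ⟨hh, fun k => k.2 hh⟩
        · exact Or.inl ⟨⟨hx, hh⟩, hh⟩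
    rw [e]
    exact hO.1

theorem no_fixed {U S' : Finset GolayPt} (hU : U ∈ supports (golayCode : Set (GolayPt → ZMod 2))) (hS : S' ∉ supports (golayCode : Set (GolayPt → ZMod 2))) :
    ∃ σ ∈ M24, σ • U = U ∧ symmDiff (σ • S') S' ∉ supports (golayCode : Set (GolayPt → ZMod 2)) := by
  by_contra hcon
  push Not at hcon
  obtain ⟨A, hA4, hA⟩ := small_rep _ S' rfl
  have hfix : ∀ σ ∈ M24, (σ • U = U ∨ σ • Uᶜ = Uᶜ) → symmDiff (σ • A) A ∈ supports (golayCode : Set (GolayPt → ZMod 2)) := by
    intro σ hσ h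
    have hσU : σ • U = U := by
      rcases h with h | h
      · exact h
      · rw [smul_compl'] at h; exact compl_injective h
    have h1 := hcon σ hσ hσU
    have h2 := M24_supp hσ hA
    rw [smul_sd] at h2
    have h3 := code_sd (code_sd h1 h2) hA
    have e : symmDiff (symmDiff (symmDiff (σ • S') S') (symmDiff (σ • S') (σ • A))) (symmDiff S' A) = symmDiff (σ • A) A := by
      ext x
      simp only [Finset.mem_symmDiff]
      by_cases a1 : x ∈ σ • S' <;> by_cases a2 : x ∈ S' <;> by_cases a3 : x ∈ σ • A <;> by_cases a4 : x ∈ A <;> simp [a1, a2, a3, a4]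
    rwa [e] at h3
  have hA0 : A.Nonempty := by
    rw [Finset.nonempty_iff_ne_empty]
    rintro rfl
    rw [show (∅ : Finset GolayPt) = ⊥ from rfl, symmDiff_bot] at hA
    exact hS hA
  by_cases h4 : A.card = 4
  · obtain ⟨X, hXU, hX, hX0, hX16⟩ : ∃ X, (X = U ∨ X = Uᶜ) ∧ X ∈ supports (golayCode : Set (GolayPt → ZMod 2)) ∧ X.card ≠ 0 ∧ X.card ≠ 16 := by
      by_cases hh : U.card = 0 ∨ U.card = 16
      · refine ⟨Uᶜ, Or.inr rfl, supp_compl hU, ?_, ?_⟩ <;> rw [Finset.card_compl, card_pt] <;> omega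
      · push Not at hh
        exact ⟨U, Or.inl rfl, hU, hh.1, hh.2⟩
    have hX8 : 8 ≤ X.card := by rcases supp_card hX with h | h | h | h | h <;> omega
    classical
    obtain ⟨F, hF⟩ : ∃ F : Finset (Finset GolayPt), F = Finset.univ.filter fun T => T.card = 4 ∧ symmDiff T A ∈ supports (golayCode : Set (GolayPt → ZMod 2)) := ⟨_, rfl⟩
    have hFm : ∀ T, T ∈ F ↔ T.card = 4 ∧ symmDiff T A ∈ supports (golayCode : Set (GolayPt → ZMod 2)) := fun T => by rw [hF]; simp
    have hFd : ∀ T ∈ F, ∀ T' ∈ F, ∀ p, p ∈ T → p ∈ T' → T = T' := by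
      intro T hT T' hT' p hp hp'
      rw [hFm] at hT hT'
      refine tet_disj hT.1.le hT'.1.le ?_ hp hp'
      have e := code_sd hT.2 hT'.2
      have e2 : symmDiff (symmDiff T A) (symmDiff T' A) = symmDiff T T' := by
        rw [symmDiff_symmDiff_symmDiff_comm, symmDiff_self, symmDiff_bot]
      rwa [e2] at e
    have hF6 : F.card ≤ 6 := by
      have e1 : (F.biUnion id).card = ∑ T ∈ F, T.card := Finset.card_biUnion (fun T hT T' hT' hne => by
        rw [Function.onFun, Finset.disjoint_left]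
        intro p hp hp'
        exact hne (hFd T hT T' hT' p hp hp'))
      rw [Finset.sum_congr rfl (fun T hT => ((hFm T).1 hT).1), Finset.sum_const, smul_eq_mul] at e1
      have e2 := Finset.card_le_univ (F.biUnion id)
      rw [card_pt] at e2
      omega
    choose f hf1 hf2 hf3 using fun p => tet_ex h4 p
    obtain ⟨p, hp, q, hq, hpq, hfe⟩ := Finset.exists_ne_map_eq_of_card_lt_of_maps_to (s := X) (t := F) (f := f) (by omega)
      (fun x _ => (hFm _).2 ⟨hf1 x, hf3 x⟩)
    obtain ⟨r, hr, hrf⟩ : ∃ r ∈ X, r ∉ f p := by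
      by_contra hh
      push Not at hh
      have := Finset.card_le_card (show X ⊆ f p from hh)
      rw [hf1] at this
      omega
    have hpr : p ≠ r := fun h => hrf (h ▸ hf2 p)
    obtain ⟨σ, hσ, hσX, k1, k2⟩ := two_trans_word hX hX0 hX16 hp hq hr hpq hpr
    have h5 := hfix σ hσ (by
      rcases hXU with h | h
      · left; rw [h] at hσX; exact hσX
      · right; rw [h] at hσX; exact hσX)
    have h6 : σ • f p ∈ F := by
      rw [hFm]
      refine ⟨by rw [Finset.card_smul_finset, hf1], ?_⟩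
      have e1 := M24_supp hσ (hf3 p)
      rw [smul_sd] at e1
      have e2 := code_sd e1 h5
      have e3 : symmDiff (symmDiff (σ • f p) (σ • A)) (symmDiff (σ • A) A) = symmDiff (σ • f p) A := by
        rw [symmDiff_assoc, ← symmDiff_assoc (σ • A), symmDiff_self, bot_symmDiff]
      rwa [e3] at e2
    have h7 : σ • f p = f p := hFd _ h6 _ ((hFm _).2 ⟨hf1 p, hf3 p⟩) p (Finset.mem_smul_finset.2 ⟨p, hf2 p, k1⟩) (hf2 p)
    apply hrf
    rw [← h7]
    exact Finset.mem_smul_finset.2 ⟨q, by rw [hfe]; exact hf2 q, k2⟩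
  · obtain ⟨a, ha⟩ := hA0
    obtain ⟨X, hXU, hX, haX⟩ : ∃ X, (X = U ∨ X = Uᶜ) ∧ X ∈ supports (golayCode : Set (GolayPt → ZMod 2)) ∧ a ∈ X := by
      by_cases hh : a ∈ U
      · exact ⟨U, Or.inl rfl, hU, hh⟩
      · exact ⟨Uᶜ, Or.inr rfl, supp_compl hU, Finset.mem_compl.2 hh⟩
    obtain ⟨b, hb, hbA⟩ : ∃ b ∈ X, b ∉ A := by
      by_contra hh
      push Not at hh
      have h1 := Finset.card_le_card (show X ⊆ A from hh)
      have h2 := Finset.card_pos.2 ⟨a, haX⟩
      rcases supp_card hX with h | h | h | h | h <;> omega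
    obtain ⟨σ, hσ, hσX, k1⟩ := trans_word hX haX hb
    have h5 := hfix σ hσ (by
      rcases hXU with h | h
      · left; rw [h] at hσX; exact hσX
      · right; rw [h] at hσX; exact hσX)
    have h6 : (symmDiff (σ • A) A).card ≤ (σ • A).card + A.card := by
      refine (Finset.card_le_card (?_ : symmDiff (σ • A) A ⊆ (σ • A) ∪ A)).trans (Finset.card_union_le _ _)
      intro x hx
      rcases Finset.mem_symmDiff.1 hx with k | k
      · exact Finset.mem_union_left _ k.1
      · exact Finset.mem_union_right _ k.1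
    rw [Finset.card_smul_finset] at h6
    have h7 : (symmDiff (σ • A) A).card = 0 := by rcases supp_card h5 with h | h | h | h | h <;> omega
    have h8 := symmDiff_eq_bot.1 (Finset.card_eq_zero.1 h7)
    apply hbA
    rw [← h8]
    exact Finset.mem_smul_finset.2 ⟨a, ha, k1⟩

end Cfsg.Agent.H9
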