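import Cfsg.Agent.H9.GolMod3
import Cfsg.Agent.H9.ClsThm
set_option autoImplicit false
set_option maxRecDepth 100000
set_option maxHeartbeats 4000000

/-! Cosets of the code of length 24, and the punctured code. -/

namespace Cfsg.Agent.H9
open Cfsg
open scoped Pointwise

theorem coset_count (A : Finset GolayPt) :
    ({T : Finset GolayPt | T.card ≤ 4 ∧ symmDiff A T ∈ supports (golayCode : Set (GolayPt → ZMod 2))}.ncard = 1 ∧
      ∃ T : Finset GolayPt, T.card ≤ 3 ∧ symmDiff A T ∈ supports (golayCode : Set (GolayPt → ZMod 2))) ∨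
    ({T : Finset GolayPt | T.card ≤ 4 ∧ symmDiff A T ∈ supports (golayCode : Set (GolayPt → ZMod 2))}.ncard = 6 ∧
      ∀ T : Finset GolayPt, symmDiff A T ∈ supports (golayCode : Set (GolayPt → ZMod 2)) → T.card ≤ 4 → T.card = 4) := by
  classical
  obtain ⟨B, hB4, hB⟩ := small_rep _ A rfl
  have tr : ∀ T : Finset GolayPt, symmDiff A T ∈ supports (golayCode : Set (GolayPt → ZMod 2)) → symmDiff T B ∈ supports (golayCode : Set (GolayPt → ZMod 2)) := by
    intro T hT
    have := code_sd hT hB
    rwa [symmDiff_symmDiff_symmDiff_comm, symmDiff_self, bot_symmDiff] at this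
  have tr' : ∀ T : Finset GolayPt, symmDiff T B ∈ supports (golayCode : Set (GolayPt → ZMod 2)) → symmDiff A T ∈ supports (golayCode : Set (GolayPt → ZMod 2)) := by
    intro T hT
    have := code_sd hB hT
    have e : symmDiff (symmDiff A B) (symmDiff T B) = symmDiff A T := by
      rw [symmDiff_symmDiff_symmDiff_comm, symmDiff_self, symmDiff_bot]
    rwa [e] at this
  have sdc : ∀ T : Finset GolayPt, (symmDiff T B).card ≤ T.card + B.card := by
    intro T
    have e1 : symmDiff T B ⊆ T ∪ B := by
      intro x hx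
      rw [Finset.mem_union]
      rcases Finset.mem_symmDiff.1 hx with k | k
      · exact Or.inl k.1
      · exact Or.inr k.1
    exact (Finset.card_le_card e1).trans (Finset.card_union_le T B)
  have small : ∀ T : Finset GolayPt, symmDiff A T ∈ supports (golayCode : Set (GolayPt → ZMod 2)) → T.card + B.card ≤ 7 → T = B := by
    intro T hT h7
    have h1 := tr T hT
    have h2 := sdc T
    have h3 : (symmDiff T B).card = 0 := by rcases supp_card h1 with k | k | k | k | k <;> omega
    exact symmDiff_eq_bot.1 (Finset.card_eq_zero.1 h3)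
  by_cases h3 : B.card ≤ 3
  · left
    refine ⟨?_, B, h3, hB⟩
    rw [Set.ncard_eq_one]
    refine ⟨B, ?_⟩
    ext T
    rw [Set.mem_singleton_iff]
    constructor
    · rintro ⟨h4, hT⟩
      exact small T hT (by omega)
    · rintro rfl; exact ⟨hB4, hB⟩
  · right
    have hB' : B.card = 4 := by omega
    have hall : ∀ T : Finset GolayPt, symmDiff A T ∈ supports (golayCode : Set (GolayPt → ZMod 2)) → T.card ≤ 4 → T.card = 4 := by
      intro T hT h4
      by_contra hne
      have := small T hT (by omega)
      rw [this] at hne; exact hne hB'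
    refine ⟨?_, hall⟩
    obtain ⟨F, hF⟩ : ∃ F : Finset (Finset GolayPt), F = Finset.univ.filter fun T => T.card = 4 ∧ symmDiff T B ∈ supports (golayCode : Set (GolayPt → ZMod 2)) := ⟨_, rfl⟩
    have hFm : ∀ T, T ∈ F ↔ T.card = 4 ∧ symmDiff T B ∈ supports (golayCode : Set (GolayPt → ZMod 2)) := fun T => by rw [hF]; simp
    have hFd : ∀ T ∈ F, ∀ T' ∈ F, ∀ p, p ∈ T → p ∈ T' → T = T' := by
      intro T hT T' hT' p hp hp'
      rw [hFm] at hT hT'
      refine tet_disj hT.1.le hT'.1.le ?_ hp hp'
      have e := code_sd hT.2 hT'.2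
      have e2 : symmDiff (symmDiff T B) (symmDiff T' B) = symmDiff T T' := by
        rw [symmDiff_symmDiff_symmDiff_comm, symmDiff_self, symmDiff_bot]
      rwa [e2] at e
    have e0 : F.biUnion id = Finset.univ := by
      ext p
      simp only [Finset.mem_biUnion, Finset.mem_univ, iff_true, id]
      obtain ⟨T, h1, h2, h3⟩ := tet_ex hB' p
      exact ⟨T, (hFm T).2 ⟨h1, h3⟩, h2⟩
    have e1 : (F.biUnion id).card = ∑ T ∈ F, T.card := Finset.card_biUnion (fun T hT T' hT' hne => by
      rw [Function.onFun, Finset.disjoint_left]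
      intro p hp hp'
      exact hne (hFd T hT T' hT' p hp hp'))
    rw [Finset.sum_congr rfl (fun T hT => ((hFm T).1 hT).1), Finset.sum_const, smul_eq_mul, e0, Finset.card_univ, card_pt] at e1
    have e2 : {T : Finset GolayPt | T.card ≤ 4 ∧ symmDiff A T ∈ supports (golayCode : Set (GolayPt → ZMod 2))} = (F : Set (Finset GolayPt)) := by
      ext T
      rw [Finset.mem_coe, hFm]
      exact ⟨fun h => ⟨hall T h.2 h.1, tr T h.2⟩, fun h => ⟨h.1.le, tr' T h.2⟩⟩
    rw [e2, Set.ncard_coe_finset]
    omega

theorem norm_supp (v : GolayPt → ZMod 2) : hammingNorm v = (support₂ v).card := rfl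

theorem sub_code (w v : GolayPt → ZMod 2) : w - v ∈ golayCode ↔ symmDiff (support₂ w) (support₂ v) ∈ supports (golayCode : Set (GolayPt → ZMod 2)) := by
  rw [← ch_mem, ← ch_add, ch_support, ch_support]
  have : w - v = w + v := by
    funext p
    have : ∀ a b : ZMod 2, a - b = a + b := by decide
    exact this _ _
  rw [this]

theorem coset_ncard (w : GolayPt → ZMod 2) : {v : GolayPt → ZMod 2 | hammingNorm v ≤ 4 ∧ w - v ∈ golayCode}.ncard =
    {T : Finset GolayPt | T.card ≤ 4 ∧ symmDiff (support₂ w) T ∈ supports (golayCode : Set (GolayPt → ZMod 2))}.ncard := by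
  have : {v : GolayPt → ZMod 2 | hammingNorm v ≤ 4 ∧ w - v ∈ golayCode} =
      ch '' {T : Finset GolayPt | T.card ≤ 4 ∧ symmDiff (support₂ w) T ∈ supports (golayCode : Set (GolayPt → ZMod 2))} := by
    ext v
    constructor
    · rintro ⟨h1, h2⟩
      exact ⟨support₂ v, ⟨h1, (sub_code w v).1 h2⟩, ch_support v⟩
    · rintro ⟨T, ⟨h1, h2⟩, rfl⟩
      exact ⟨by rw [norm_supp, support_ch]; exact h1, (sub_code w _).2 (by rw [support_ch]; exact h2)⟩
  rw [this, Set.ncard_image_of_injective _ (fun A B h => ch_inj h)]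

/-! ### the punctured code -/

abbrev Pun : Set (ZMod 23 → ZMod 2) := {u | ∃ w ∈ golayCode, ∀ x : ZMod 23, u x = w (some x)}

def pw (k : ℕ) : ZMod 23 → ZMod 2 := fun x => wd (enc k) (some x)

theorem mem_Pun (u : ZMod 23 → ZMod 2) : u ∈ Pun ↔ ∃ i < 4096, (fun _ : ℕ => true) i = true ∧ pw i = u := by
  constructor
  · rintro ⟨w, hw, h⟩
    obtain ⟨k, hk, rfl⟩ := mem_golay_iff.1 hw
    exact ⟨k, hk, rfl, funext fun x => (h x).symm⟩
  · rintro ⟨k, hk, _, rfl⟩
    exact ⟨_, enc_mem hk, fun x => rfl⟩

theorem supp_wd (m : ℕ) : support₂ (wd m) = S m := by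
  ext p
  rw [mem_supp, mem_S]
  unfold wd
  split_ifs with h <;> simp [h]

theorem one_pt {w w' : GolayPt → ZMod 2} (hw : w ∈ golayCode) (hw' : w' ∈ golayCode) {X : Finset GolayPt} (hX : X.card ≤ 7)
    (h : ∀ p, p ∉ X → w p = w' p) : w = w' := by
  have h1 := (sub_code w w').1 (golayCode.sub_mem hw hw')
  have h2 : symmDiff (support₂ w) (support₂ w') ⊆ X := by
    intro p hp
    by_contra hpX
    have := h p hpX
    rw [Finset.mem_symmDiff, mem_supp, mem_supp, this] at hp
    rcases hp with k | k <;> exact k.2 k.1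
  have h3 := Finset.card_le_card h2
  have h4 : (symmDiff (support₂ w) (support₂ w')).card = 0 := by
    rcases supp_card h1 with k | k | k | k | k <;> omega
  have h5 := symmDiff_eq_bot.1 (Finset.card_eq_zero.1 h4)
  rw [← ch_support w, h5, ch_support]

theorem pw_inj : ∀ i < 4096, ∀ j < 4096, (fun _ : ℕ => true) i = true → (fun _ : ℕ => true) j = true → pw i = pw j → i = j := by
  intro i hi j hj _ _ h
  have h1 : wd (enc i) = wd (enc j) := by
    refine one_pt (enc_mem hi) (enc_mem hj) (X := {none}) (by simp) ?_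
    intro p hp
    cases p with
    | none => simp at hp
    | some x => exact congrFun h x
  refine S_enc_inj hi hj ?_
  rw [← supp_wd, ← supp_wd, h1]

theorem norm_pw (k : ℕ) : hammingNorm (pw k) = pc (Nat.land (enc k) 8388607) := by
  rw [← card_S]
  have : S (Nat.land (enc k) 8388607) = (Finset.univ.filter fun x : ZMod 23 => pw k x ≠ 0).map Function.Embedding.some := by
    ext p
    rw [mem_S, Finset.mem_map]
    have e : Nat.land (enc k) 8388607 = enc k &&& (2 ^ 23 - 1) := rfl
    rw [e, Nat.testBit_and, Nat.testBit_two_pow_sub_one, Bool.and_eq_true, decide_eq_true_iff]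
    cases p with
    | none =>
      constructor
      · rintro ⟨_, h⟩; exact absurd h (by decide)
      · rintro ⟨x, _, h⟩; cases h
    | some x =>
      have hx : idx (some x) < 23 := ZMod.val_lt x
      constructor
      · rintro ⟨h, _⟩
        refine ⟨x, Finset.mem_filter.2 ⟨Finset.mem_univ _, ?_⟩, rfl⟩
        unfold pw wd
        rw [if_pos h]; exact one_ne_zero
      · rintro ⟨y, hy, h⟩
        have : y = x := Option.some_injective _ h
        subst this
        refine ⟨?_, hx⟩
        by_contra hc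
        apply (Finset.mem_filter.1 hy).2
        unfold pw wd
        rw [if_neg hc]
  rw [this, Finset.card_map]; rfl

theorem pun_count (n : ℕ) : {u : ZMod 23 → ZMod 2 | u ∈ Pun ∧ hammingNorm u = n}.ncard =
    cnt (fun i => band (Nat.blt i 4096) (band ((fun _ : ℕ => true) i) (Nat.beq (pc (Nat.land (enc i) 8388607)) n))) := by
  apply ncard_nodes (le_refl _) pw Pun mem_Pun pw_inj
  intro i hi _
  rw [norm_pw, beq_iff]

theorem pun_card : (Pun).ncard = 4096 := by
  have h := ncard_nodes (le_refl _) pw Pun mem_Pun pw_inj (fun _ => True) (fun _ => true) (fun _ _ _ => by simp)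
  have e : {x | x ∈ Pun ∧ True} = Pun := by ext x; simp
  rw [e] at h
  rw [h]; decide +kernel

theorem pun7 : {u : ZMod 23 → ZMod 2 | u ∈ Pun ∧ hammingNorm u = 7}.ncard = 253 := by rw [pun_count]; decide +kernel
theorem pun8 : {u : ZMod 23 → ZMod 2 | u ∈ Pun ∧ hammingNorm u = 8}.ncard = 506 := by rw [pun_count]; decide +kernel
theorem pun11 : {u : ZMod 23 → ZMod 2 | u ∈ Pun ∧ hammingNorm u = 11}.ncard = 1288 := by rw [pun_count]; decide +kernel
theorem pun12 : {u : ZMod 23 → ZMod 2 | u ∈ Pun ∧ hammingNorm u = 12}.ncard = 1288 := by rw [pun_count]; decide +kernel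
theorem pun15 : {u : ZMod 23 → ZMod 2 | u ∈ Pun ∧ hammingNorm u = 15}.ncard = 506 := by rw [pun_count]; decide +kernel
theorem pun16 : {u : ZMod 23 → ZMod 2 | u ∈ Pun ∧ hammingNorm u = 16}.ncard = 253 := by rw [pun_count]; decide +kernel

theorem pun_min {u : ZMod 23 → ZMod 2} (hu : u ∈ Pun) (h0 : u ≠ 0) : 7 ≤ hammingNorm u := by
  by_contra hlt
  obtain ⟨w, hw, h⟩ := hu
  have h1 : w = 0 := by
    refine one_pt hw golayCode.zero_mem (X := insert none ((Finset.univ.filter fun x : ZMod 23 => u x ≠ 0).map Function.Embedding.some)) ?_ ?_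
    · refine (Finset.card_insert_le _ _).trans ?_
      rw [Finset.card_map]
      have : (Finset.univ.filter fun x : ZMod 23 => u x ≠ 0).card = hammingNorm u := rfl
      omega
    · intro p hp
      rw [Finset.mem_insert, Finset.mem_map] at hp
      push Not at hp
      cases p with
      | none => exact absurd rfl hp.1
      | some x =>
        have h2 : u x = 0 := by
          by_contra hx
          exact hp.2 x (Finset.mem_filter.2 ⟨Finset.mem_univ _, hx⟩) rfl
        rw [← h x, h2]; rfl
  apply h0
  funext x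
  rw [h x, h1]; rfl

theorem pun_perfect (u : ZMod 23 → ZMod 2) : ∃! c : ZMod 23 → ZMod 2, c ∈ Pun ∧ hammingDist u c ≤ 3 := by
  have ex : ∃ c : ZMod 23 → ZMod 2, c ∈ Pun ∧ hammingDist u c ≤ 3 := by
    obtain ⟨A, hA⟩ : ∃ A : Finset GolayPt, A = (Finset.univ.filter fun x : ZMod 23 => u x ≠ 0).map Function.Embedding.some := ⟨_, rfl⟩
    obtain ⟨B, hB4, hB⟩ := small_rep _ A rfl
    obtain ⟨T, hT3, hT⟩ : ∃ T : Finset GolayPt, (T.erase none).card ≤ 3 ∧ symmDiff A T ∈ supports (golayCode : Set (GolayPt → ZMod 2)) := by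
      by_cases h3 : (B.erase none).card ≤ 3
      · exact ⟨B, h3, hB⟩
      · have h4 := Finset.card_erase_le (s := B) (a := none)
        have hB' : B.card = 4 := by omega
        obtain ⟨T, h1, h2, h3'⟩ := tet_ex hB' none
        refine ⟨T, by rw [Finset.card_erase_of_mem h2, h1], ?_⟩
        have := code_sd hB h3'
        have e : symmDiff (symmDiff A B) (symmDiff T B) = symmDiff A T := by
          rw [symmDiff_symmDiff_symmDiff_comm, symmDiff_self, symmDiff_bot]
        rwa [e] at this
    refine ⟨fun x => ch (symmDiff A T) (some x), ⟨_, ch_mem.2 hT, fun x => rfl⟩, ?_⟩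
    refine le_trans ?_ hT3
    have : hammingDist u (fun x => ch (symmDiff A T) (some x)) = ((Finset.univ.filter fun x : ZMod 23 => u x ≠ ch (symmDiff A T) (some x)).map Function.Embedding.some).card := by
      rw [Finset.card_map]; rfl
    rw [this]
    apply Finset.card_le_card
    intro p hp
    rw [Finset.mem_map] at hp
    obtain ⟨x, hx, rfl⟩ := hp
    have hx := (Finset.mem_filter.1 hx).2
    show (some x) ∈ T.erase none
    rw [Finset.mem_erase]
    refine ⟨Option.some_ne_none x, ?_⟩
    by_contra hxT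
    apply hx
    have hAx : (some x ∈ A) ↔ u x ≠ 0 := by
      rw [hA, Finset.mem_map]
      constructor
      · rintro ⟨y, hy, h⟩
        have : y = x := Option.some_injective _ h
        rw [← this]; exact (Finset.mem_filter.1 hy).2
      · intro h; exact ⟨x, Finset.mem_filter.2 ⟨Finset.mem_univ _, h⟩, rfl⟩
    unfold ch
    have h5 : some x ∈ symmDiff A T ↔ u x ≠ 0 := by
      rw [Finset.mem_symmDiff, hAx]
      constructor
      · rintro (k | k)
        · exact k.1
        · exact absurd k.1 hxT
      · intro k; exact Or.inl ⟨k, hxT⟩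
    rcases zmod2_cases (u x) with k | k
    · rw [if_neg (by rw [h5]; exact fun hh => hh k), k]
    · rw [if_pos (by rw [h5, k]; exact one_ne_zero), k]
  obtain ⟨c, hc, hd⟩ := ex
  refine ⟨c, ⟨hc, hd⟩, ?_⟩
  rintro c' ⟨hc', hd'⟩
  obtain ⟨w, hw, h⟩ := hc
  obtain ⟨w', hw', h'⟩ := hc'
  have hdd : hammingDist c' c ≤ 6 := by
    have := hammingDist_triangle c' u c
    rw [hammingDist_comm c' u] at this
    omega
  have e : w' = w := by
    refine one_pt hw' hw (X := insert none ((Finset.univ.filter fun x : ZMod 23 => c' x ≠ c x).map Function.Embedding.some)) ?_ ?_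
    · refine (Finset.card_insert_le _ _).trans ?_
      rw [Finset.card_map]
      have : (Finset.univ.filter fun x : ZMod 23 => c' x ≠ c x).card = hammingDist c' c := rfl
      omega
    · intro p hp
      rw [Finset.mem_insert, Finset.mem_map] at hp
      push Not at hp
      cases p with
      | none => exact absurd rfl hp.1
      | some x =>
        have h2 : c' x = c x := by
          by_contra hx
          exact hp.2 x (Finset.mem_filter.2 ⟨Finset.mem_univ _, hx⟩) rfl
        rw [← h x, ← h' x, h2]
  funext x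
  rw [h x, h' x, e]

end Cfsg.Agent.H9
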