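import Cfsg.Prelude
set_option autoImplicit false
set_option maxRecDepth 100000
set_option maxHeartbeats 4000000

/-! The hexacode over an abstract field with four elements. -/

namespace Cfsg.Agent.H9.Hexa
open Cfsg

def ad : Fin 4 → Fin 4 → Fin 4 := ![![0, 1, 2, 3], ![1, 0, 3, 2], ![2, 3, 0, 1], ![3, 2, 1, 0]]
def mu : Fin 4 → Fin 4 → Fin 4 := ![![0, 0, 0, 0], ![0, 1, 2, 3], ![0, 2, 3, 1], ![0, 3, 1, 2]]

abbrev T3 := Fin 4 × Fin 4 × Fin 4

def W (t : T3) (i : Fin 6) : Fin 4 :=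
  ad (ad (mu t.1 (![2, 3, 3, 2, 3, 2] i)) (mu t.2.1 (![3, 2, 2, 3, 3, 2] i))) (mu t.2.2 (![3, 2, 3, 2, 2, 3] i))

variable {F : Type*} [Field F]

def ev (ω : F) : Fin 4 → F := ![0, 1, ω, ω + 1]

theorem two_zero [Fintype F] (hF : Fintype.card F = 4) : (2 : F) = 0 := by
  have h1 : ((4 : ℕ) : F) = 0 := by rw [← hF]; exact Nat.cast_card_eq_zero F
  have h2 : (2 : F) * 2 = 0 := by rw [← h1]; norm_num
  exact mul_self_eq_zero.1 h2

variable {ω : F} (h2 : (2 : F) = 0) (hω : ω ^ 2 + ω + 1 = 0)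
include h2

theorem ev_ad (a b : Fin 4) : ev ω (ad a b) = ev ω a + ev ω b := by
  have e : (1 : F) + 1 = 0 := by rw [← h2]; norm_num
  fin_cases a <;> fin_cases b <;> simp [ev, ad] <;> grind

include hω

theorem ev_mu (a b : Fin 4) : ev ω (mu a b) = ev ω a * ev ω b := by
  have e : (1 : F) + 1 = 0 := by rw [← h2]; norm_num
  fin_cases a <;> fin_cases b <;> simp [ev, mu] <;> grind

theorem ev_sq : ev ω 3 = ω ^ 2 := by
  show ω + 1 = ω ^ 2
  have e : (1 : F) + 1 = 0 := by rw [← h2]; norm_num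
  grind

theorem ev_inj : Function.Injective (ev ω) := by
  have e : (1 : F) + 1 = 0 := by rw [← h2]; norm_num
  have w0 : ω ≠ 0 := by rintro rfl; simp at hω
  have w1 : ω ≠ 1 := by
    rintro rfl
    have : (1 : F) = 0 := by
      calc (1 : F) = (1 ^ 2 + 1 + 1) - 2 := by ring
        _ = 0 := by rw [hω, h2, sub_zero]
    exact one_ne_zero this
  have w2 : ω + 1 ≠ 0 := by intro h; apply w1; grind
  intro a b hab
  fin_cases a <;> fin_cases b <;> simp [ev] at hab ⊢ <;> grind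

theorem ev_bij [Fintype F] (hF : Fintype.card F = 4) : Function.Bijective (ev ω) := by
  rw [Fintype.bijective_iff_injective_and_card]
  exact ⟨ev_inj h2 hω, by rw [hF, Fintype.card_fin]⟩

theorem ev_W (t : T3) (i : Fin 6) : ev ω (W t i) =
    ev ω t.1 * (![ω, ω ^ 2, ω ^ 2, ω, ω ^ 2, ω] i) + ev ω t.2.1 * (![ω ^ 2, ω, ω, ω ^ 2, ω ^ 2, ω] i) + ev ω t.2.2 * (![ω ^ 2, ω, ω ^ 2, ω, ω, ω ^ 2] i) := by
  unfold W
  rw [ev_ad h2, ev_ad h2, ev_mu h2 hω, ev_mu h2 hω, ev_mu h2 hω]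
  have e2 : ev ω 2 = ω := rfl
  have e3 := ev_sq h2 hω
  fin_cases i <;> simp [e2, e3]

theorem mem_iff [Fintype F] (hF : Fintype.card F = 4) {x : Fin 6 → F} : x ∈ hexacode F ω ↔ ∃ t : T3, x = fun i => ev ω (W t i) := by
  unfold hexacode
  rw [Submodule.mem_span_triple]
  constructor
  · rintro ⟨a, b, c, rfl⟩
    obtain ⟨a, rfl⟩ := (ev_bij h2 hω hF).2 a
    obtain ⟨b, rfl⟩ := (ev_bij h2 hω hF).2 b
    obtain ⟨c, rfl⟩ := (ev_bij h2 hω hF).2 c
    refine ⟨(a, b, c), ?_⟩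
    funext i
    rw [ev_W h2 hω]; rfl
  · rintro ⟨t, rfl⟩
    refine ⟨ev ω t.1, ev ω t.2.1, ev ω t.2.2, ?_⟩
    funext i
    rw [ev_W h2 hω]; rfl

omit h2 hω in
theorem W_inj : ∀ s t : T3, (∀ i : Fin 6, W s i = W t i) → s = t := by decide +kernel

theorem Phi_inj : Function.Injective (fun t : T3 => fun i => ev ω (W t i)) := by
  intro s t h
  exact W_inj s t fun i => ev_inj h2 hω (congrFun h i)

omit h2 hω in
def wt (t : T3) : ℕ := (Finset.univ.filter fun i => W t i ≠ 0).card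

omit h2 hω in
theorem wts : ∀ t : T3, t = 0 ∨ wt t = 4 ∨ wt t = 6 := by decide +kernel
omit h2 hω in
theorem n4 : (Finset.univ.filter fun t : T3 => wt t = 4).card = 45 := by decide +kernel
omit h2 hω in
theorem n6 : (Finset.univ.filter fun t : T3 => wt t = 6).card = 18 := by decide +kernel

theorem supp_wt [DecidableEq F] (t : T3) : (Finset.univ.filter fun i => ev ω (W t i) ≠ 0).card = wt t := by
  unfold wt
  congr 1
  ext i
  rw [Finset.mem_filter, Finset.mem_filter]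
  have h0 : ev ω 0 = 0 := rfl
  constructor
  · rintro ⟨_, h⟩; exact ⟨Finset.mem_univ _, fun h' => h (by rw [h', h0])⟩
  · rintro ⟨_, h⟩; exact ⟨Finset.mem_univ _, fun h' => h (ev_inj h2 hω (h'.trans h0.symm))⟩

theorem count [Fintype F] [DecidableEq F] (hF : Fintype.card F = 4) (n : ℕ) :
    {x : Fin 6 → F | x ∈ hexacode F ω ∧ (Finset.univ.filter fun i => x i ≠ 0).card = n}.ncard = (Finset.univ.filter fun t : T3 => wt t = n).card := by
  have : {x : Fin 6 → F | x ∈ hexacode F ω ∧ (Finset.univ.filter fun i => x i ≠ 0).card = n} =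
      (fun t : T3 => fun i => ev ω (W t i)) '' ((Finset.univ.filter fun t : T3 => wt t = n : Finset T3) : Set T3) := by
    ext x
    constructor
    · rintro ⟨h1, h3⟩
      obtain ⟨t, rfl⟩ := (mem_iff h2 hω hF).1 h1
      exact ⟨t, by rw [Finset.coe_filter]; exact ⟨Finset.mem_univ _, by rw [← supp_wt h2 hω]; exact h3⟩, rfl⟩
    · rintro ⟨t, ht, rfl⟩
      rw [Finset.coe_filter] at ht
      exact ⟨(mem_iff h2 hω hF).2 ⟨t, rfl⟩, by rw [supp_wt h2 hω]; exact ht.2⟩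
  rw [this, Set.ncard_image_of_injective _ (Phi_inj h2 hω), Set.ncard_coe_finset]

theorem card_code [Fintype F] (hF : Fintype.card F = 4) : Nat.card (hexacode F ω) = 64 := by
  have h1 : ((hexacode F ω : Submodule F (Fin 6 → F)) : Set (Fin 6 → F)) = Set.range (fun t : T3 => fun i => ev ω (W t i)) := by
    ext x
    exact (mem_iff h2 hω hF).trans ⟨fun ⟨t, h⟩ => ⟨t, h.symm⟩, fun ⟨t, h⟩ => ⟨t, h.symm⟩⟩
  have h3 : Nat.card (hexacode F ω) = ((hexacode F ω : Submodule F (Fin 6 → F)) : Set (Fin 6 → F)).ncard := rfl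
  rw [h3, h1, ← Set.image_univ, Set.ncard_image_of_injective _ (Phi_inj h2 hω), Set.ncard_univ, Nat.card_eq_fintype_card]
  simp

end Cfsg.Agent.H9.Hexa
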