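import Cfsg.Agent.H9.Hexa
set_option autoImplicit false
set_option maxRecDepth 100000
set_option maxHeartbeats 4000000

/-! The monomial group of the hexacode. -/

namespace Cfsg.Agent.H9.Hexa
open Cfsg

def dec (v : Fin 6 → Fin 4) : T3 :=
  (ad (ad (mu 2 (v 0)) (mu 3 (v 1))) (mu 0 (v 2)), ad (ad (mu 3 (v 0)) (mu 3 (v 1))) (mu 1 (v 2)), ad (ad (mu 0 (v 0)) (mu 1 (v 1))) (mu 1 (v 2)))

theorem dec_W : ∀ t, dec (W t) = t := by decide +kernel

def tab : Fin 6 → Fin 6 → Fin 6 → ℕ :=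
  ![![![0, 0, 0, 0, 0, 0], ![0, 0, 1791, 1962, 1461, 1509], ![0, 1962, 0, 1791, 1755, 1767], ![0, 1791, 1962, 0, 1902, 2022], ![0, 1509, 1725, 1977, 0, 1461], ![0, 1461, 1662, 1947, 1509, 0]], ![![0, 0, 1962, 1791, 1509, 1461], ![0, 0, 0, 0, 0, 0], ![1791, 0, 0, 1962, 1947, 1977], ![1962, 0, 1791, 0, 1662, 1725], ![1461, 0, 2022, 1767, 0, 1509], ![1509, 0, 1902, 1755, 1461, 0]], ![![0, 1791, 0, 1962, 1725, 1662], ![1962, 0, 0, 1791, 2022, 1902], ![0, 0, 0, 0, 0, 0], ![1791, 1962, 0, 0, 1371, 1374], ![1755, 1947, 0, 1374, 0, 1371], ![1767, 1977, 0, 1371, 1374, 0]], ![![0, 1962, 1791, 0, 1977, 1947], ![1791, 0, 1962, 0, 1767, 1755], ![1962, 1791, 0, 0, 1374, 1371], ![0, 0, 0, 0, 0, 0], ![1902, 1662, 1371, 0, 0, 1374], ![2022, 1725, 1374, 0, 1371, 0]], ![![0, 1461, 1755, 1902, 0, 1509], ![1509, 0, 1947, 1662, 0, 1461], ![1725, 2022, 0, 1371, 0, 1374], ![1977, 1767, 1374, 0, 0, 1371], ![0, 0, 0, 0, 0, 0], ![1461, 1509,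 1371, 1374, 0, 0]], ![![0, 1509, 1767, 2022, 1461, 0], ![1461, 0, 1977, 1725, 1509, 0], ![1662, 1902, 0, 1374, 1371, 0], ![1947, 1755, 1371, 0, 1374, 0], ![1509, 1461, 1374, 1371, 0, 0], ![0, 0, 0, 0, 0, 0]]]

def gam (n : ℕ) (i : Fin 6) : Fin 4 := ⟨n / 4 ^ (i : ℕ) % 4, Nat.mod_lt _ (by norm_num)⟩

def gen (k : Fin 3) : T3 := ![(1, 0, 0), (0, 1, 0), (0, 0, 1)] k

theorem three0 : ∀ a b c : Fin 6, a ≠ b → b ≠ c → a ≠ c → (∀ i, gam (tab a b c) i ≠ 0) := by decide +kernel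

theorem three1 : ∀ a b c : Fin 6, a ≠ b → b ≠ c → a ≠ c → ∀ k : Fin 3,
    ∀ i, W (dec (fun i => mu (gam (tab a b c) i) (W (gen k) (Equiv.swap b c (Equiv.swap a b i))))) i =
      mu (gam (tab a b c) i) (W (gen k) (Equiv.swap b c (Equiv.swap a b i))) := by decide +kernel

theorem noswap : ∀ a b c d e f : Fin 4, a ≠ 0 → b ≠ 0 → c ≠ 0 → d ≠ 0 → e ≠ 0 → f ≠ 0 →
    ¬ ∀ k : Fin 3, ∀ i, W (dec (fun i => mu (![a, b, c, d, e, f] i) (W (gen k) (Equiv.swap 0 1 i)))) i =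
      mu (![a, b, c, d, e, f] i) (W (gen k) (Equiv.swap 0 1 i)) := by decide +kernel

theorem two_pts : ∀ i j : Fin 6, ∃ t : T3, W t i ≠ 0 ∧ W t j ≠ 0 ∧ wt t = 4 := by decide +kernel

theorem W_gen : ∀ (t : T3) (i : Fin 6), W t i = ad (ad (mu t.1 (W (gen 0) i)) (mu t.2.1 (W (gen 1) i))) (mu t.2.2 (W (gen 2) i)) := by decide +kernel

theorem three_form {σ : Equiv.Perm (Fin 6)} (h : σ.IsThreeCycle) : ∃ a b c, a ≠ b ∧ b ≠ c ∧ a ≠ c ∧ σ = Equiv.swap a b * Equiv.swap b c := by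
  have h3 : σ ^ 3 = 1 := by rw [← h.orderOf]; exact pow_orderOf_eq_one σ
  have hs := h.card_support
  obtain ⟨a, ha⟩ : σ.support.Nonempty := by rw [← Finset.card_pos, hs]; norm_num
  rw [Equiv.Perm.mem_support] at ha
  have e3 : σ (σ (σ a)) = a := by
    have := congrArg (fun τ : Equiv.Perm (Fin 6) => τ a) h3
    simpa [pow_succ] using this
  have hab : a ≠ σ a := fun h => ha h.symm
  have hbc : σ a ≠ σ (σ a) := fun h => hab (σ.injective h)
  have hac : a ≠ σ (σ a) := by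
    intro h
    rw [← h] at e3
    exact ha e3
  have hsup : σ.support = {a, σ a, σ (σ a)} := by
    symm
    apply Finset.eq_of_subset_of_card_le
    · intro x hx
      rw [Finset.mem_insert, Finset.mem_insert, Finset.mem_singleton] at hx
      rw [Equiv.Perm.mem_support]
      rcases hx with rfl | rfl | rfl
      · exact ha
      · exact fun h => hbc h.symm
      · rw [e3]; exact hac
    · rw [hs, Finset.card_insert_of_notMem (by simp [hab, hac]), Finset.card_pair hbc]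
  refine ⟨a, σ a, σ (σ a), hab, hbc, hac, ?_⟩
  ext1 x
  rw [Equiv.Perm.mul_apply]
  by_cases h1 : x = a
  · rw [h1, Equiv.swap_apply_of_ne_of_ne hab hac, Equiv.swap_apply_left]
  · by_cases h2 : x = σ a
    · rw [h2, Equiv.swap_apply_left, Equiv.swap_apply_of_ne_of_ne hac.symm hbc.symm]
    · by_cases h4 : x = σ (σ a)
      · rw [h4, Equiv.swap_apply_right, Equiv.swap_apply_right, e3]
      · rw [Equiv.swap_apply_of_ne_of_ne h2 h4, Equiv.swap_apply_of_ne_of_ne h1 h2]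
        have : x ∉ σ.support := by rw [hsup]; simp [h1, h2, h4]
        exact Equiv.Perm.notMem_support.1 this

variable {F : Type*} [Field F]

theorem mm_add (σ : Equiv.Perm (Fin 6)) (c : Fin 6 → Fˣ) (x y : Fin 6 → F) : monomialMap σ c (x + y) = monomialMap σ c x + monomialMap σ c y := by
  funext i; show (c i : F) * (x _ + y _) = c i * x _ + c i * y _; ring

theorem mm_smul (σ : Equiv.Perm (Fin 6)) (c : Fin 6 → Fˣ) (a : F) (x : Fin 6 → F) : monomialMap σ c (a • x) = a • monomialMap σ c x := by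
  funext i; show (c i : F) * (a * x _) = a * (c i * x _); ring

theorem mm_mul (σ τ : Equiv.Perm (Fin 6)) (c d : Fin 6 → Fˣ) (x : Fin 6 → F) :
    monomialMap σ c (monomialMap τ d x) = monomialMap (σ * τ) (fun i => c i * d (σ.symm i)) x := by
  funext i
  show (c i : F) * (d (σ.symm i) * x (τ.symm (σ.symm i))) = ((c i * d (σ.symm i) : Fˣ) : F) * x (τ.symm (σ.symm i))
  rw [Units.val_mul]; ring

theorem mm_inj (σ : Equiv.Perm (Fin 6)) (c : Fin 6 → Fˣ) : Function.Injective (monomialMap (F := F) σ c) := by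
  intro x y h
  funext i
  have := congrFun h (σ i)
  have h2 : (c (σ i) : F) * x (σ.symm (σ i)) = c (σ i) * y (σ.symm (σ i)) := this
  rw [σ.symm_apply_apply] at h2
  exact mul_left_cancel₀ (Units.ne_zero _) h2

def Pres (ω : F) (σ : Equiv.Perm (Fin 6)) (c : Fin 6 → Fˣ) : Prop := ∀ x ∈ hexacode F ω, monomialMap σ c x ∈ hexacode F ω

theorem pres_surj [Finite F] {ω : F} {σ : Equiv.Perm (Fin 6)} {c : Fin 6 → Fˣ} (h : Pres ω σ c) {x : Fin 6 → F} (hx : x ∈ hexacode F ω) :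
    ∃ y ∈ hexacode F ω, monomialMap σ c y = x := by
  have hs : Function.Surjective (fun y : hexacode F ω => (⟨monomialMap σ c y, h y y.2⟩ : hexacode F ω)) := by
    apply Finite.surjective_of_injective
    intro y z hyz
    exact Subtype.ext (mm_inj σ c (congrArg Subtype.val hyz))
  obtain ⟨y, hy⟩ := hs ⟨x, hx⟩
  exact ⟨y, y.2, congrArg Subtype.val hy⟩

theorem pres_mul {ω : F} {σ τ : Equiv.Perm (Fin 6)} {c d : Fin 6 → Fˣ} (h : Pres ω σ c) (h' : Pres ω τ d) :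
    Pres ω (σ * τ) (fun i => c i * d (σ.symm i)) := by
  intro x hx
  rw [← mm_mul]
  exact h _ (h' _ hx)

def HG [Finite F] (ω : F) : Subgroup (Equiv.Perm (Fin 6)) where
  carrier := {σ | ∃ c, Pres ω σ c}
  mul_mem' := by
    rintro σ τ ⟨c, hc⟩ ⟨d, hd⟩
    exact ⟨_, pres_mul hc hd⟩
  one_mem' := ⟨fun _ => 1, fun x hx => by
    have : monomialMap (1 : Equiv.Perm (Fin 6)) (fun _ => (1 : Fˣ)) x = x := by
      funext i; show ((1 : Fˣ) : F) * x i = x i; rw [Units.val_one, one_mul]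
    rw [this]; exact hx⟩
  inv_mem' := by
    rintro σ ⟨c, hc⟩
    refine ⟨fun i => (c (σ i))⁻¹, fun x hx => ?_⟩
    obtain ⟨y, hy, rfl⟩ := pres_surj hc hx
    have : monomialMap σ⁻¹ (fun i => (c (σ i))⁻¹) (monomialMap σ c y) = y := by
      funext i
      show (((c (σ i))⁻¹ : Fˣ) : F) * ((c (σ i) : F) * y (σ.symm (σ i))) = y i
      rw [σ.symm_apply_apply, ← mul_assoc, ← Units.val_mul, inv_mul_cancel, Units.val_one, one_mul]
    rw [this]; exact hy

variable {ω : F} (h2 : (2 : F) = 0) (hω : ω ^ 2 + ω + 1 = 0)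
include h2 hω

theorem pres_of [Fintype F] (hF : Fintype.card F = 4) {σ : Equiv.Perm (Fin 6)} {c : Fin 6 → Fˣ} {γ : Fin 6 → Fin 4}
    (hc : ∀ i, (c i : F) = ev ω (γ i)) (hg : ∀ k : Fin 3, ∃ s, ∀ i, W s i = mu (γ i) (W (gen k) (σ.symm i))) : Pres ω σ c := by
  have hgen : ∀ k : Fin 3, monomialMap σ c (fun i => ev ω (W (gen k) i)) ∈ hexacode F ω := by
    intro k
    obtain ⟨s, hs⟩ := hg k
    rw [mem_iff h2 hω hF]
    refine ⟨s, ?_⟩
    funext i
    show (c i : F) * ev ω (W (gen k) (σ.symm i)) = _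
    rw [hs i, hc i, ev_mu h2 hω]
  intro x hx
  obtain ⟨t, rfl⟩ := (mem_iff h2 hω hF).1 hx
  have e : (fun i => ev ω (W t i)) = ev ω t.1 • (fun i => ev ω (W (gen 0) i)) + ev ω t.2.1 • (fun i => ev ω (W (gen 1) i)) +
      ev ω t.2.2 • (fun i => ev ω (W (gen 2) i)) := by
    funext i
    show ev ω (W t i) = ev ω t.1 * ev ω (W (gen 0) i) + ev ω t.2.1 * ev ω (W (gen 1) i) + ev ω t.2.2 * ev ω (W (gen 2) i)
    rw [← ev_mu h2 hω, ← ev_mu h2 hω, ← ev_mu h2 hω, ← ev_ad h2, ← ev_ad h2]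
    rw [W_gen]
  rw [e, mm_add, mm_add, mm_smul, mm_smul, mm_smul]
  exact Submodule.add_mem _ (Submodule.add_mem _ (Submodule.smul_mem _ _ (hgen 0)) (Submodule.smul_mem _ _ (hgen 1))) (Submodule.smul_mem _ _ (hgen 2))

theorem ev_ne {a : Fin 4} (h : a ≠ 0) : ev ω a ≠ 0 := fun h' => h (ev_inj h2 hω (h'.trans rfl))

theorem alt_le [Fintype F] (hF : Fintype.card F = 4) : alternatingGroup (Fin 6) ≤ HG ω := by
  rw [← Equiv.Perm.closure_three_cycles_eq_alternating, Subgroup.closure_le]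
  intro σ hσ
  obtain ⟨a, b, c, hab, hbc, hac, rfl⟩ := three_form hσ
  refine ⟨fun i => Units.mk0 (ev ω (gam (tab a b c) i)) (ev_ne h2 hω (three0 a b c hab hbc hac i)), ?_⟩
  refine pres_of h2 hω hF (γ := gam (tab a b c)) (fun i => rfl) (fun k =>
    ⟨dec (fun i => mu (gam (tab a b c) i) (W (gen k) (Equiv.swap b c (Equiv.swap a b i)))), fun i => three1 a b c hab hbc hac k i⟩)

theorem swap_not [Fintype F] (hF : Fintype.card F = 4) : Equiv.swap (0 : Fin 6) 1 ∉ HG ω := by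
  rintro ⟨c, hc⟩
  choose γ hγ using fun i => (ev_bij h2 hω hF).2 (c i : F)
  have h0 : ∀ i, γ i ≠ 0 := by
    intro i h
    have := hγ i
    rw [h] at this
    exact Units.ne_zero (c i) this.symm
  refine noswap (γ 0) (γ 1) (γ 2) (γ 3) (γ 4) (γ 5) (h0 0) (h0 1) (h0 2) (h0 3) (h0 4) (h0 5) ?_
  have hγe : ![γ 0, γ 1, γ 2, γ 3, γ 4, γ 5] = γ := by
    funext i; fin_cases i <;> rfl
  rw [hγe]
  intro k i
  have h1 := hc (fun i => ev ω (W (gen k) i)) ((mem_iff h2 hω hF).2 ⟨gen k, rfl⟩)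
  obtain ⟨s, hs⟩ := (mem_iff h2 hω hF).1 h1
  have h3 : ∀ i, W s i = mu (γ i) (W (gen k) (Equiv.swap 0 1 i)) := by
    intro i
    apply ev_inj h2 hω
    rw [ev_mu h2 hω, hγ]
    exact (congrFun hs i).symm
  have h4 : W s = fun i => mu (γ i) (W (gen k) (Equiv.swap 0 1 i)) := funext h3
  rw [← h4, dec_W]; exact h3 i

theorem HG_eq [Fintype F] (hF : Fintype.card F = 4) : HG ω = alternatingGroup (Fin 6) := by
  apply le_antisymm _ (alt_le h2 hω hF)
  intro σ hσ
  by_contra hodd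
  apply swap_not h2 hω hF
  have h1 : Equiv.swap (0 : Fin 6) 1 * σ ∈ alternatingGroup (Fin 6) := by
    rw [Equiv.Perm.mem_alternatingGroup] at hodd ⊢
    rw [map_mul, Equiv.Perm.sign_swap (by decide)]
    rcases Int.units_eq_one_or (Equiv.Perm.sign σ) with h | h
    · exact absurd h hodd
    · rw [h]; rfl
  have h3 := (HG ω).mul_mem (alt_le h2 hω hF h1) ((HG ω).inv_mem hσ)
  rwa [mul_inv_cancel_right] at h3

theorem min4 [Fintype F] [DecidableEq F] (hF : Fintype.card F = 4) {x : Fin 6 → F} (hx : x ∈ hexacode F ω) (h : (Finset.univ.filter fun i => x i ≠ 0).card ≤ 3) : x = 0 := by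
  obtain ⟨t, rfl⟩ := (mem_iff h2 hω hF).1 hx
  rw [supp_wt h2 hω] at h
  rcases wts t with h1 | h1 | h1
  · rw [h1]
    funext i
    have : ∀ i, W 0 i = 0 := by decide
    rw [this]; rfl
  · omega
  · omega

theorem diag_const [Fintype F] [DecidableEq F] (hF : Fintype.card F = 4) {c : Fin 6 → Fˣ} (hc : Pres ω 1 c) (i j : Fin 6) : c i = c j := by
  obtain ⟨t, hi, hj, ht⟩ := two_pts i j
  obtain ⟨x, hx⟩ : ∃ x : Fin 6 → F, x = fun i => ev ω (W t i) := ⟨_, rfl⟩
  have hxC : x ∈ hexacode F ω := (mem_iff h2 hω hF).2 ⟨t, hx⟩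
  have hz : monomialMap 1 c x - (c i : F) • x ∈ hexacode F ω := Submodule.sub_mem _ (hc x hxC) (Submodule.smul_mem _ _ hxC)
  have hzv : ∀ k, (monomialMap 1 c x - (c i : F) • x) k = ((c k : F) - c i) * x k := by
    intro k
    show (c k : F) * x k - c i * x k = _
    ring
  have h0 : monomialMap 1 c x - (c i : F) • x = 0 := by
    apply min4 h2 hω hF hz
    have h1 : (Finset.univ.filter fun k => (monomialMap 1 c x - (c i : F) • x) k ≠ 0) ⊆ (Finset.univ.filter fun k => x k ≠ 0).erase i := by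
      intro k hk
      rw [Finset.mem_filter, hzv] at hk
      rw [Finset.mem_erase, Finset.mem_filter]
      refine ⟨?_, Finset.mem_univ _, right_ne_zero_of_mul hk.2⟩
      rintro rfl
      exact hk.2 (by rw [sub_self, zero_mul])
    have h3 := Finset.card_le_card h1
    have hxi : i ∈ (Finset.univ.filter fun k => x k ≠ 0) := by
      rw [Finset.mem_filter, hx]; exact ⟨Finset.mem_univ _, ev_ne h2 hω hi⟩
    have h4 : (Finset.univ.filter fun k => x k ≠ 0).card = 4 := by rw [hx, supp_wt h2 hω]; exact ht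
    rw [Finset.card_erase_of_mem hxi, h4] at h3
    exact h3
  have h5 := congrFun h0 j
  rw [hzv] at h5
  have hxj : x j ≠ 0 := by rw [hx]; exact ev_ne h2 hω hj
  have h6 := (mul_eq_zero.1 h5).resolve_right hxj
  exact Units.ext (sub_eq_zero.1 h6).symm

omit h2 hω in
theorem pres_smul {σ : Equiv.Perm (Fin 6)} {c : Fin 6 → Fˣ} (h : Pres ω σ c) (u : Fˣ) : Pres ω σ (fun i => u * c i) := by
  intro x hx
  have : monomialMap σ (fun i => u * c i) x = (u : F) • monomialMap σ c x := by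
    funext i
    show ((u * c i : Fˣ) : F) * x _ = u * (c i * x _)
    rw [Units.val_mul, mul_assoc]
  rw [this]; exact Submodule.smul_mem _ _ (h x hx)

theorem pres_unique [Fintype F] [DecidableEq F] (hF : Fintype.card F = 4) {σ : Equiv.Perm (Fin 6)} {c d : Fin 6 → Fˣ} (hc : Pres ω σ c) (hd : Pres ω σ d) :
    d = fun i => (d 0 * (c 0)⁻¹) * c i := by
  have h1 : Pres ω 1 (fun i => d i * (c i)⁻¹) := by
    intro x hx
    obtain ⟨y, hy, rfl⟩ := pres_surj hc hx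
    have : monomialMap 1 (fun i => d i * (c i)⁻¹) (monomialMap σ c y) = monomialMap σ d y := by
      funext i
      show ((d i * (c i)⁻¹ : Fˣ) : F) * ((c i : F) * y (σ.symm i)) = d i * y (σ.symm i)
      rw [← mul_assoc, ← Units.val_mul, inv_mul_cancel_right]
    rw [this]; exact hd y hy
  funext i
  have h3 := diag_const h2 hω hF h1 i 0
  rw [← h3, inv_mul_cancel_right]

theorem count_mon [Fintype F] [DecidableEq F] (hF : Fintype.card F = 4) : Nat.card {f : Equiv.Perm (Fin 6) × (Fin 6 → Fˣ) // Pres ω f.1 f.2} = 1080 := by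
  classical
  have hex : ∀ σ : alternatingGroup (Fin 6), ∃ c, Pres ω (σ : Equiv.Perm (Fin 6)) c := fun σ => alt_le h2 hω hF σ.2
  choose c0 hc0 using hex
  have hb : Function.Bijective (fun p : alternatingGroup (Fin 6) × Fˣ =>
      (⟨((p.1 : Equiv.Perm (Fin 6)), fun i => p.2 * c0 p.1 i), pres_smul (hc0 p.1) p.2⟩ : {f : Equiv.Perm (Fin 6) × (Fin 6 → Fˣ) // Pres ω f.1 f.2})) := by
    constructor
    · rintro ⟨σ, u⟩ ⟨τ, v⟩ h
      have h1 := congrArg (fun f => f.1.1) h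
      have h3 : σ = τ := Subtype.ext h1
      subst h3
      have h4 := congrFun (congrArg (fun f => f.1.2) h) 0
      have h5 : u * c0 σ 0 = v * c0 σ 0 := h4
      rw [mul_right_cancel h5]
    · rintro ⟨⟨σ, c⟩, hc⟩
      have hσ : σ ∈ alternatingGroup (Fin 6) := by rw [← HG_eq h2 hω hF]; exact ⟨c, hc⟩
      refine ⟨(⟨σ, hσ⟩, c 0 * (c0 ⟨σ, hσ⟩ 0)⁻¹), ?_⟩
      apply Subtype.ext
      exact Prod.ext rfl (pres_unique h2 hω hF (hc0 ⟨σ, hσ⟩) hc).symm
  rw [← Nat.card_congr (Equiv.ofBijective _ hb), Nat.card_prod]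
  have e1 : Nat.card (alternatingGroup (Fin 6)) = 360 := by
    have := two_mul_nat_card_alternatingGroup (α := Fin 6)
    rw [Nat.card_perm, Nat.card_fin] at this
    have h720 : Nat.factorial 6 = 720 := rfl
    omega
  have e3 : Nat.card Fˣ = 3 := by
    rw [Nat.card_units, Nat.card_eq_fintype_card, hF]
  rw [e1, e3]

end Cfsg.Agent.H9.Hexa
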