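import Cfsg.Agent.H9.OctG
set_option autoImplicit false

/-! Two octads meeting in two points. -/

namespace Cfsg.Agent.H9
open Cfsg
open scoped Pointwise

theorem hex_ok : allR (fun k => @Bool.rec (fun _ => Bool) true
    (allN (fun x => @Bool.rec (fun _ => Bool) true
      (@Bool.rec (fun _ => Bool) true (Nat.beq x (bs 6)) (Nat.beq (imgM (tr 6 x) (enc k)) (enc k)))
      (Nat.beq (bt (orb 6) x) 1)) 24)
    (band (Nat.beq (pc (enc k)) 8) (band (Nat.beq (pc (Nat.land (enc k) (bsMask 6))) 0) (Nat.beq (pc (Nat.land (enc k) oct0)) 2)))) 12 0 = true := by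
  decide +kernel

theorem kern2 {o o' : Finset GolayPt} (ho : o ∈ octads) (ho' : o' ∈ octads) (h2 : (o ∩ o').card = 2) {g : Equiv.Perm GolayPt} (hg : g ∈ M24)
    (h3 : g • o' = o') (hfix : ∀ p ∈ o \ o', g p = p) : g = 1 := by
  have hE : (o \ o').card = 6 := by
    have := Finset.card_sdiff_add_card_inter o o'
    rw [octad_card ho] at this
    omega
  obtain ⟨x, x1, x2, x3⟩ := exists_enum hE
  obtain ⟨u, hu, hux⟩ := frame_in ho Finset.sdiff_subset x x1 x2
  have hB6 : ((Finset.range 6).image B).card = 6 := by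
    rw [Finset.card_image_of_injOn, Finset.card_range]
    intro i hi j hj h
    simp only [Finset.coe_range, Set.mem_Iio] at hi hj
    by_contra hij
    rcases lt_or_gt_of_ne hij with h' | h'
    · exact B_ne (by omega) h' h.symm
    · exact B_ne (by omega) h' h
  have huo : u • o = S oct0 := by
    refine octad_eq_of_inter (smul_mem_weight hu ho) oct0_mem ?_
    have : (Finset.range 6).image B ⊆ u • o ∩ S oct0 := by
      intro p hp
      obtain ⟨i, hi, rfl⟩ := Finset.mem_image.1 hp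
      rw [Finset.mem_range] at hi
      rw [Finset.mem_inter]
      refine ⟨?_, B_mem_oct0 hi⟩
      have := hux i hi
      unfold C1 at this
      rw [← this]
      exact Finset.mem_smul_finset.2 ⟨x i, (Finset.mem_sdiff.1 (x1 i hi)).1, rfl⟩
    have := Finset.card_le_card this
    omega
  have hy : u • o' ∈ octads := smul_mem_weight hu ho'
  obtain ⟨k, hk, hk8, hyk⟩ := mem_octads_iff.1 hy
  have c1 : (u • o ∩ u • o').card = 2 := by rw [smul_inter_card, h2]
  rw [huo, hyk, Finset.inter_comm, pc_and] at c1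
  have c2 : pc (Nat.land (enc k) (bsMask 6)) = 0 := by
    have e : (S (enc k) ∩ S (bsMask 6)).card = 0 := by
      rw [Finset.card_eq_zero, Finset.eq_empty_iff_forall_notMem]
      intro p hp
      rw [Finset.mem_inter, mem_bsMask (by norm_num)] at hp
      obtain ⟨hp1, i, hi, rfl⟩ := hp
      rw [← hyk] at hp1
      have h5 := hux i hi
      unfold C1 at h5
      rw [← h5] at hp1
      obtain ⟨q, hq, h6⟩ := Finset.mem_smul_finset.1 hp1
      rw [Equiv.Perm.smul_def] at h6
      rw [u.injective h6] at hq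
      exact (Finset.mem_sdiff.1 (x1 i hi)).2 hq
    rw [pc_and] at e
    exact e
  obtain ⟨g', hg'⟩ : ∃ g', g' = u * g * u⁻¹ := ⟨_, rfl⟩
  have hgM : g' ∈ M24 := by rw [hg']; exact M24.mul_mem (M24.mul_mem hu hg) (M24.inv_mem hu)
  have hg6 : g' ∈ Hc 6 := mem_Hc.2 ⟨hgM, fun j hj => by
    have h5 := hux j hj
    unfold C1 at h5
    rw [hg', Equiv.Perm.mul_apply, Equiv.Perm.mul_apply, ← h5, show u⁻¹ (u (x j)) = x j by simp, hfix _ (x1 j hj)]⟩
  have hgy : g' • S (enc k) = S (enc k) := by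
    rw [← hyk, hg', mul_smul, mul_smul, inv_smul_smul, h3]
  obtain ⟨t, ht, ht1, ht2, ht3⟩ := Hc6_elt hg6
  rw [ht3, smul_S (checkM24_perm ht2)] at hgy
  have hm := S_inj (imgM_lt (checkM24_perm ht2) _) (enc_lt k) hgy
  have hx := allR_spec hex_ok k (by omega) (by omega)
  have hb : band (Nat.beq (pc (enc k)) 8) (band (Nat.beq (pc (Nat.land (enc k) (bsMask 6))) 0) (Nat.beq (pc (Nat.land (enc k) oct0)) 2)) = true := by
    rw [band_iff, band_iff, beq_iff, beq_iff, beq_iff]
    exact ⟨hk8, c2, c1⟩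
  rw [hb] at hx
  have hx2 := (allN_iff _ _).1 hx t ht
  rw [bt_eq_one ht1] at hx2
  have hm' : Nat.beq (imgM (tr 6 t) (enc k)) (enc k) = true := by rw [hm]; exact Nat.beq_refl _
  rw [hm'] at hx2
  have hx3 : t = bs 6 := Nat.eq_of_beq_eq_true hx2
  obtain ⟨_, q1, _⟩ := tr_spec (by norm_num) ht ht1
  have hg7 : g' ∈ Hc 7 := mem_Hc.2 ⟨hgM, fun j hj => by
    by_cases h6 : j < 6
    · exact (mem_Hc.1 hg6).2 j h6
    · have : j = 6 := by omega
      subst this
      rw [ht3]
      change toPerm (tr 6 t) (pt (bs 6)) = pt (bs 6)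
      rw [q1, hx3]⟩
  rw [Hc7, Subgroup.mem_bot] at hg7
  have e : g = u⁻¹ * g' * u := by rw [hg']; group
  rw [e, hg7]; group

theorem sym6 {o o' : Finset GolayPt} (ho : o ∈ octads) (ho' : o' ∈ octads) (h2 : (o ∩ o').card = 2) :
    Nonempty (↥(MulAction.stabilizer M24 o ⊓ MulAction.stabilizer M24 o') ≃* Equiv.Perm (Fin 6)) := by
  obtain ⟨J, hJ⟩ : ∃ J, J = MulAction.stabilizer M24 o ⊓ MulAction.stabilizer M24 o' := ⟨_, rfl⟩
  have hJc : Nat.card J = 720 := by rw [hJ]; exact (joint_orders ho ho').2.2 h2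
  have hE : (o \ o').card = 6 := by
    have := Finset.card_sdiff_add_card_inter o o'
    rw [octad_card ho] at this
    omega
  have hK : ∀ g ∈ J.map M24.subtype, g ∈ M24 ∧ g • o = o ∧ g • o' = o' := by
    rintro _ ⟨g, hg, rfl⟩
    rw [SetLike.mem_coe, hJ] at hg
    exact ⟨g.2, hg.1, hg.2⟩
  have hKE : ∀ g ∈ J.map M24.subtype, g • (o \ o') = o \ o' := by
    intro g hg
    obtain ⟨_, h3, h4⟩ := hK g hg
    rw [Finset.smul_finset_sdiff, h3, h4]
  have hinj : Function.Injective (resHom (J.map M24.subtype) (o \ o') hKE) := by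
    rw [injective_iff_map_eq_one]
    intro g hg
    obtain ⟨h3, h4, h5⟩ := hK g g.2
    apply Subtype.ext
    refine kern2 ho ho' h2 h3 h5 fun p hp => ?_
    have := congrArg (fun f : Equiv.Perm ↥(o \ o') => ((f ⟨p, hp⟩ : ↥(o \ o')) : GolayPt)) hg
    exact this
  have hcK : Nat.card (J.map M24.subtype) = 720 := by
    rw [← hJc]
    exact (Nat.card_congr (J.equivMapOfInjective _ M24.subtype_injective).toEquiv).symm
  have hcE : Nat.card (Equiv.Perm ↥(o \ o')) = 720 := by
    rw [Nat.card_eq_fintype_card, Fintype.card_perm, Fintype.card_coe, hE]; rfl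
  have hbij : Function.Bijective (resHom (J.map M24.subtype) (o \ o') hKE) :=
    (Nat.bijective_iff_injective_and_card _).2 ⟨hinj, by rw [hcK, hcE]⟩
  have e1 := (J.equivMapOfInjective _ M24.subtype_injective).trans (MulEquiv.ofBijective _ hbij)
  have e2 : ↥(o \ o') ≃ Fin 6 := Fintype.equivFinOfCardEq (by rw [Fintype.card_coe, hE])
  rw [← hJ]
  exact ⟨e1.trans e2.permCongrHom⟩

end Cfsg.Agent.H9
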