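import Cfsg.Prelude
set_option autoImplicit false

/-! Permuting isomorphic orbits. -/

namespace Cfsg.Agent.H9.PermCopies

open scoped Classical in
theorem hom_exists {H X : Type*} [Group H] [MulAction H X] {r : ℕ} (x : Fin r → X)
    (h1 : ∀ i j, MulAction.stabilizer H (x i) = MulAction.stabilizer H (x j))
    (h2 : ∀ (g g' : H) (i j : Fin r), g • x i = g' • x j → i = j) :
    ∃ φ : Equiv.Perm (Fin r) →* Equiv.Perm X, (∀ σ i, φ σ (x i) = x (σ i)) ∧ ∀ σ (g : H) y, φ σ (g • y) = g • φ σ y := by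
  obtain ⟨F, hF⟩ : ∃ F : Equiv.Perm (Fin r) → X → X, F = fun σ y => if h : ∃ p : H × Fin r, p.1 • x p.2 = y then
    h.choose.1 • x (σ h.choose.2) else y := ⟨_, rfl⟩
  have F1 : ∀ σ (g : H) i, F σ (g • x i) = g • x (σ i) := by
    intro σ g i
    have hex : ∃ p : H × Fin r, p.1 • x p.2 = g • x i := ⟨(g, i), rfl⟩
    rw [hF]
    show (if h : ∃ p : H × Fin r, p.1 • x p.2 = g • x i then h.choose.1 • x (σ h.choose.2) else g • x i) = _
    rw [dif_pos hex]
    have hs := hex.choose_spec
    have hi := h2 _ _ _ _ hs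
    rw [hi] at hs ⊢
    have h3 : g⁻¹ * hex.choose.1 ∈ MulAction.stabilizer H (x i) := by
      rw [MulAction.mem_stabilizer_iff, mul_smul, hs, inv_smul_smul]
    rw [h1 i (σ i), MulAction.mem_stabilizer_iff, mul_smul, inv_smul_eq_iff] at h3
    exact h3
  have F2 : ∀ σ y, (¬ ∃ p : H × Fin r, p.1 • x p.2 = y) → F σ y = y := by
    intro σ y hy
    rw [hF]
    show (if h : ∃ p : H × Fin r, p.1 • x p.2 = y then h.choose.1 • x (σ h.choose.2) else y) = _
    rw [dif_neg hy]
  have Fmul : ∀ σ τ y, F (σ * τ) y = F σ (F τ y) := by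
    intro σ τ y
    by_cases hy : ∃ p : H × Fin r, p.1 • x p.2 = y
    · obtain ⟨⟨g, i⟩, rfl⟩ := hy
      rw [F1, F1, F1]; rfl
    · rw [F2 _ _ hy, F2 τ _ hy, F2 _ _ hy]
  have Fone : ∀ y, F 1 y = y := by
    intro y
    by_cases hy : ∃ p : H × Fin r, p.1 • x p.2 = y
    · obtain ⟨⟨g, i⟩, rfl⟩ := hy
      rw [F1]; rfl
    · rw [F2 _ _ hy]
  have Feq : ∀ σ (g : H) y, F σ (g • y) = g • F σ y := by
    intro σ g y
    by_cases hy : ∃ p : H × Fin r, p.1 • x p.2 = y
    · obtain ⟨⟨g', i⟩, rfl⟩ := hy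
      show F σ (g • g' • x i) = g • F σ (g' • x i)
      rw [smul_smul, F1, F1, mul_smul]
    · rw [F2 σ y hy, F2]
      rintro ⟨⟨g', i⟩, h⟩
      apply hy
      refine ⟨(g⁻¹ * g', i), ?_⟩
      show (g⁻¹ * g') • x i = y
      have h' : g' • x i = g • y := h
      rw [mul_smul, h', inv_smul_smul]
  refine ⟨{ toFun := fun σ => ⟨F σ, F σ⁻¹, fun y => by rw [← Fmul, inv_mul_cancel, Fone], fun y => by rw [← Fmul, mul_inv_cancel, Fone]⟩
            map_one' := Equiv.ext Fone
            map_mul' := fun σ τ => Equiv.ext (Fmul σ τ) }, ?_, ?_⟩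
  · intro σ i
    show F σ (x i) = x (σ i)
    have := F1 σ 1 i
    rwa [one_smul, one_smul] at this
  · intro σ g y
    exact Feq σ g y

theorem points_exist {H X : Type*} [Group H] [Fintype H] [Fintype X] [MulAction H X] {r : ℕ}
    (hc : Fintype.card H * (r * 2 ^ Fintype.card H) + 1 ≤ Fintype.card X) :
    ∃ x : Fin r → X, (∀ i j, MulAction.stabilizer H (x i) = MulAction.stabilizer H (x j)) ∧
      ∀ (g g' : H) (i j : Fin r), g • x i = g' • x j → i = j := by
  classical
  let Ω := MulAction.orbitRel.Quotient H X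
  haveI : Fintype Ω := Fintype.ofFinite _
  have hrep : ∀ y : X, ∃ g : H, g • (Quotient.out (Quotient.mk'' y : Ω) : X) = y := by
    intro y
    have h1 : (MulAction.orbitRel H X).r (Quotient.out (Quotient.mk'' y : Ω)) y := Quotient.mk_out (s := MulAction.orbitRel H X) y
    have h2 := (MulAction.orbitRel H X).symm h1
    obtain ⟨g, hg⟩ := MulAction.orbitRel_apply.1 h2
    exact ⟨g, hg⟩
  choose rep hrep using hrep
  have hinj : Function.Injective (fun y : X => ((Quotient.mk'' y : Ω), rep y)) := by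
    intro y z h
    have h1 : (Quotient.mk'' y : Ω) = Quotient.mk'' z := (Prod.ext_iff.1 h).1
    have h2 : rep y = rep z := (Prod.ext_iff.1 h).2
    rw [← hrep y, ← hrep z, h1, h2]
  have hcard : Fintype.card X ≤ Fintype.card Ω * Fintype.card H := by
    rw [← Fintype.card_prod]
    exact Fintype.card_le_of_injective _ hinj
  have hpos : 0 < Fintype.card H := Fintype.card_pos
  have hlt : Fintype.card (Set H) * r < Fintype.card Ω := by
    rw [Fintype.card_set]
    by_contra hcon
    have h3 : Fintype.card Ω * Fintype.card H ≤ (2 ^ Fintype.card H * r) * Fintype.card H := Nat.mul_le_mul_right _ (not_lt.1 hcon)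
    have h4 : (2 ^ Fintype.card H * r) * Fintype.card H = Fintype.card H * (r * 2 ^ Fintype.card H) := by ring
    omega
  obtain ⟨S, hS⟩ := Fintype.exists_lt_card_fiber_of_mul_lt_card (fun ω : Ω => (MulAction.stabilizer H (Quotient.out ω : X) : Set H)) hlt
  obtain ⟨e⟩ : Nonempty (Fin r ↪ {ω : Ω // ω ∈ Finset.univ.filter fun ω : Ω => (MulAction.stabilizer H (Quotient.out ω : X) : Set H) = S}) := by
    apply Function.Embedding.nonempty_of_card_le
    rw [Fintype.card_fin, Fintype.card_coe]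
    exact hS.le
  refine ⟨fun i => Quotient.out (e i).1, ?_, ?_⟩
  · intro i j
    apply SetLike.coe_injective
    exact ((Finset.mem_filter.1 (e i).2).2).trans ((Finset.mem_filter.1 (e j).2).2).symm
  · intro g g' i j h
    apply e.injective
    apply Subtype.ext
    rw [← Quotient.out_eq (e i).1, ← Quotient.out_eq (e j).1]
    apply Quotient.sound
    refine MulAction.orbitRel_apply.2 ⟨g⁻¹ * g', ?_⟩
    have h' : g • (Quotient.out (e i).1 : X) = g' • (Quotient.out (e j).1 : X) := h
    show (g⁻¹ * g') • (Quotient.out (e j).1 : X) = Quotient.out (e i).1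
    rw [mul_smul, ← h', inv_smul_smul]

end Cfsg.Agent.H9.PermCopies
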