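import Cfsg.Agent.H9.Orb2
set_option autoImplicit false

/-! Explicit tetrads, colour classes of orbit representatives. -/

namespace Cfsg.Agent.H9
open Cfsg
open scoped Pointwise

/-- check of an explicit list of tetrad masks -/
def sxl (s : ℕ) (l : List ℕ) : Bool :=
  Nat.beq l.length 6 && l.all (fun m => Nat.blt m 16777216 && (Nat.beq (pc m) 4 && Nat.beq (syn m) s)) && decide l.Nodup

theorem list_image_card {l : List ℕ} (hn : l.Nodup) (hl : ∀ m ∈ l, m < 2 ^ 24) : ((l.map S).toFinset).card = l.length := by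
  rw [List.toFinset_card_of_nodup, List.length_map]
  exact (List.nodup_map_iff_inj_on hn).2 fun a ha b hb h => S_inj (hl a ha) (hl b hb) h

theorem Sx_list {s : ℕ} {l : List ℕ} (h : sxl s l = true) :
    Sx s = (l.map S).toFinset ∧ l.Nodup ∧ ∀ m ∈ l, m < 2 ^ 24 ∧ pc m = 4 ∧ syn m = s := by
  rw [sxl, Bool.and_eq_true, Bool.and_eq_true, beq_iff, List.all_eq_true, decide_eq_true_eq] at h
  obtain ⟨⟨h1, h2⟩, h3⟩ := h
  have h4 : ∀ m ∈ l, m < 2 ^ 24 ∧ pc m = 4 ∧ syn m = s := by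
    intro m hm
    have := h2 m hm
    rw [Bool.and_eq_true, Bool.and_eq_true, beq_iff, beq_iff] at this
    exact ⟨by simpa [Nat.blt] using this.1, this.2.1, this.2.2⟩
  have hsub : (l.map S).toFinset ⊆ Sx s := by
    intro t ht
    rw [List.mem_toFinset, List.mem_map] at ht
    obtain ⟨m, hm, rfl⟩ := ht
    obtain ⟨a, b, c⟩ := h4 m hm
    exact mem_Sx.2 ⟨by rw [card_S, b], by rw [sy_S a, c]⟩
  have hcard := list_image_card h3 (fun m hm => (h4 m hm).1)
  refine ⟨?_, h3, h4⟩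
  symm
  apply Finset.eq_of_subset_of_card_le hsub
  rw [hcard, h1]
  obtain ⟨m, hm⟩ : ∃ m, m ∈ l := by
    cases l with
    | nil => simp at h1
    | cons a l => exact ⟨a, by simp⟩
  have : S m ∈ Sx s := hsub (by rw [List.mem_toFinset, List.mem_map]; exact ⟨m, hm, rfl⟩)
  rw [Sx_card this]

theorem filter_list_card {l : List ℕ} (hn : l.Nodup) (hl : ∀ m ∈ l, m < 2 ^ 24) (P : Finset GolayPt → Prop) [DecidablePred P]
    (p : ℕ → Bool) (hp : ∀ m ∈ l, p m = true ↔ P (S m)) :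
    (((l.map S).toFinset).filter P).card = (l.filter p).length := by
  have : ((l.map S).toFinset).filter P = ((l.filter p).map S).toFinset := by
    ext t
    rw [Finset.mem_filter, List.mem_toFinset, List.mem_toFinset, List.mem_map, List.mem_map]
    constructor
    · rintro ⟨⟨m, hm, rfl⟩, h⟩
      exact ⟨m, List.mem_filter.2 ⟨hm, (hp m hm).2 h⟩, rfl⟩
    · rintro ⟨m, hm, rfl⟩
      rw [List.mem_filter] at hm
      exact ⟨⟨m, hm.1, rfl⟩, (hp m hm.1).1 hm.2⟩
  rw [this, list_image_card (hn.filter _) (fun m hm => hl m (List.mem_filter.1 hm).1)]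

/-- colour classes from orbit representatives with distinct invariant colours -/
theorem OrbReps.classes {G X : Type*} [Group G] [MulAction G X] {H : Subgroup G} {Ω : Set X} {R : List X} {L : List ℕ}
    (h : OrbReps H Ω R L) (c : X → ℕ) (hc : ∀ g ∈ H, ∀ x ∈ Ω, c (g • x) = c x) (hnd : (R.map c).Nodup) :
    (∀ y ∈ Ω, ∀ z ∈ Ω, c y = c z → ∃ g ∈ H, g • y = z) ∧
    ∀ x ∈ R, {y | y ∈ Ω ∧ c y = c x} = MulAction.orbit H x := by
  obtain ⟨h1, h2, h3, h4⟩ := h
  have horb : ∀ x ∈ R, ∀ y ∈ MulAction.orbit H x, c y = c x := by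
    rintro x hx y ⟨g, rfl⟩
    exact hc g g.2 x (h1 x hx)
  have hcl : ∀ x ∈ R, ∀ y ∈ Ω, c y = c x → y ∈ MulAction.orbit H x := by
    intro x hx y hy hyx
    obtain ⟨z, hz, hyz⟩ := h4 y hy
    have : z = x := List.inj_on_of_nodup_map hnd hz hx (by rw [← horb z hz y hyz, hyx])
    rwa [← this]
  refine ⟨?_, ?_⟩
  · intro y hy z hz hyz
    obtain ⟨x, hx, hyx⟩ := h4 y hy
    have hzx := hcl x hx z hz (by rw [← hyz, horb x hx y hyx])
    obtain ⟨g, rfl⟩ := hyx
    obtain ⟨k, rfl⟩ := hzx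
    refine ⟨k * g⁻¹, (k * g⁻¹).2, ?_⟩
    show (k * g⁻¹) • g • x = k • x
    rw [mul_smul, inv_smul_smul]
  · intro x hx
    ext y
    constructor
    · rintro ⟨a, b⟩; exact hcl x hx y a b
    · intro hy; exact ⟨h3 x hx hy, horb x hx y hy⟩

theorem ncard_transport' {G X : Type*} [Group G] [MulAction G X] (g : G) {A B : Set X} (h : ∀ s, s ∈ A ↔ g • s ∈ B) :
    A.ncard = B.ncard := by
  have : B = g • A := by
    ext x
    rw [Set.mem_smul_set_iff_inv_smul_mem, h, smul_inv_smul]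
  rw [this, Set.ncard_smul_set]

end Cfsg.Agent.H9
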