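import Cfsg.Agent.H9.Syl2
import Cfsg.Agent.H9.Mathieu
import Cfsg.Agent.H9.Out11
set_option autoImplicit false

/-! Sylow 2-subgroup of M11 (generated). -/

namespace Cfsg.Agent.H9.SyM11
open Cfsg Cfsg.Agent.H9
open scoped Pointwise

/-- data -/
def PP : ℕ := 0x52cb689aa13d08c9bc62bc9d06a5007cdd4b1a30bd50c2a92d3c96320440bd6cb998a87b92ca1db054a2408860bdaa57196d7ce0c89d0954a8219020
/-- data -/
def WT : ℕ := 0x140101007000000000000000000000000000000000000040200000000000000000000000000000000000000010000000000000000000000000000000000000000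
/-- data -/
def MT : ℕ := 0x1e00000a000002000040
/-- data -/
def BT : ℕ := 0x8426
/-- data -/
def I0 : ℕ := 0x5335e
/-- data -/
def Ms0 : ℕ := 0x100004004001231e
/-- data -/
def Rs0 : ℕ := 0x30c1
/-- data -/
def Wd0 : ℕ := 0x10000e0000002800000000300800000000060080400000
/-- membership test -/
noncomputable def inG (P : ℕ) : Bool := band (band (checkM24 P) (Nat.beq (imgM P dod0) dod0)) (Nat.beq (im P 0) 0)

theorem inG_spec (P : ℕ) (h : inG P = true) : isPerm P = true ∧ toPerm P ∈ (chn K12 g12B 1) := by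
  rw [inG, band_iff, beq_iff] at h
  have hp := checkM24_perm (band_iff.1 h.1).1
  exact ⟨hp, mem_K11.2 ⟨mem_of_mask_check h.1, by rw [toPerm_pt hp (by norm_num), h.2]⟩⟩

theorem pc : pcOK PP WT 4 = true := by decide +kernel
theorem mk : mkOK PP MT BT 4 = true := by decide +kernel
theorem gen_in : allN (fun j => inG (pk PP j)) 4 = true := by decide +kernel
theorem le_G : genG PP 4 ≤ (chn K12 g12B 1) := genG_le (fun i hi => (inG_spec _ ((allN_iff _ _).1 gen_in i hi)).2)

theorem orb0 : orbsOK PP 4 I0 3 Ms0 Rs0 Wd0 = true := by decide +kernel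
theorem dom {x : Equiv.Perm GolayPt} (hx : x ∈ (chn K12 g12B 1)) : ∀ q ∈ S I0, x q ∈ S I0 := by
  have e : ∀ q, q ∈ S I0 ↔ q ∈ S dod0 ∧ ¬ q = pt 0 := by
    intro q
    have : I0 = dod0 &&& ((2 ^ 0) ^^^ 16777215) := by decide +kernel
    rw [this, S_and, S_compl, S_two_pow (by norm_num), Finset.mem_inter, Finset.mem_compl, Finset.mem_singleton]
  have h0 := mem_K11.1 hx
  intro q hq
  rw [e] at hq ⊢
  exact ⟨dod_inv h0.1 _ hq.1, fun h => hq.2 (x.injective (h.trans h0.2.symm))⟩

theorem u0_0 : uniqOK Ms0 3 0 = true := by decide +kernel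
theorem s0_0 : Nat.beq (Nat.land (look24 Ms0 0) I0) (look24 Ms0 0) = true := by decide +kernel
theorem u0_1 : uniqOK Ms0 3 1 = true := by decide +kernel
theorem s0_1 : Nat.beq (Nat.land (look24 Ms0 1) I0) (look24 Ms0 1) = true := by decide +kernel
theorem u0_2 : uniqOK Ms0 3 2 = true := by decide +kernel
theorem s0_2 : Nat.beq (Nat.land (look24 Ms0 2) I0) (look24 Ms0 2) = true := by decide +kernel
theorem hp (i : ℕ) (hi : i < 4) : isPerm (pk PP i) = true := pc_perm pc hi

theorem inv0 {x : Equiv.Perm GolayPt} (hx : x ∈ (chn K12 g12B 1)) (hN : NormP x (genG PP 4)) {j : ℕ} (hu : uniqOK Ms0 3 j = true)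
    (hs : Nat.beq (Nat.land (look24 Ms0 j) I0) (look24 Ms0 j) = true) : ∀ q ∈ S (look24 Ms0 j), x q ∈ S (look24 Ms0 j) :=
  hN.inv hp orb0 hu (dom hx) hs

/-- data -/
def Ms1 : ℕ := 0x40040
/-- data -/
def Rs1 : ℕ := 0x6
/-- data -/
def Wd1 : ℕ := 0x1000000000000000000000000000000000000000000000
theorem orb1 : orbsOK PP 1 (look24 Ms0 1) 1 Ms1 Rs1 Wd1 = true := by decide +kernel
theorem u1 : uniqOK Ms1 1 0 = true := by decide +kernel
theorem s1 : Nat.beq (Nat.land (look24 Ms1 0) (look24 Ms0 1)) (look24 Ms1 0) = true := by decide +kernel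
set_option maxRecDepth 100000 in
theorem norm_self (x : Equiv.Perm GolayPt) (hx : x ∈ (chn K12 g12B 1)) (hN : NormP x (genG PP 4)) : x ∈ genG PP 4 := by
  have blk : ∀ (s n b : ℕ), s ≤ n → n ≤ 4 → allN (fun j => @Bool.rec (fun _ => Bool) (Nat.beq (lookW 5 31 BT j) b) true (Nat.blt j s)) n = true → ∀ j, s ≤ j → j < n → lookW 5 31 BT j = b := by
    intro s n b _ _ h j h1 h2
    have h3 := (allN_iff _ _).1 h j h2
    rcases (brec_true _ _).1 h3 with h4 | h4
    · exfalso; have : j < s := by simpa [Nat.blt] using h4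
      omega
    · exact beq_iff.1 h4
  have g0 := hx
  have n0_0 := hN
  obtain ⟨k0, hk0, e0⟩ := n0_0.move hp orb0 u0_0 (dom g0) s0_0 (a := pt 1) ((mem_S_pt (by norm_num)).2 (by decide +kernel))
  set x1 := k0 * x with hx1
  have g1 : x1 ∈ (chn K12 g12B 1) := (chn K12 g12B 1).mul_mem (le_G (genG_mono (by norm_num) hk0)) g0
  have n1_0 : NormP x1 (genG PP 4) := (NormP.of_mem (genG_mono (by norm_num) hk0)).mul n0_0
  have f1_0 : x1 (pt 1) = pt 1 := e0
  have n1_1 : NormP x1 (genG PP 1) := NormP.step pc mk (n := 4) (by norm_num) (by norm_num) (blk 1 4 1 (by norm_num) (by norm_num) (by decide +kernel)) (by norm_num) (by decide +kernel) n1_0 f1_0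
  obtain ⟨k1, hk1, e1⟩ := n1_1.move (fun i hi => hp i (by omega)) orb1 u1 (inv0 g1 n1_0 u0_1 s0_1) s1 (a := pt 6) ((mem_S_pt (by norm_num)).2 (by decide +kernel))
  set x2 := k1 * x1 with hx2
  have g2 : x2 ∈ (chn K12 g12B 1) := (chn K12 g12B 1).mul_mem (le_G (genG_mono (by norm_num) hk1)) g1
  have n2_0 : NormP x2 (genG PP 4) := (NormP.of_mem (genG_mono (by norm_num) hk1)).mul n1_0
  have n2_1 : NormP x2 (genG PP 1) := (NormP.of_mem (genG_mono (by norm_num) hk1)).mul n1_1
  have f2_0 : x2 (pt 1) = pt 1 := by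
    rw [hx2, Equiv.Perm.mul_apply, f1_0]; exact genG_fix (fun i hi => hp i (by omega)) (by norm_num) (by decide +kernel) _ hk1
  have f2_1 : x2 (pt 6) = pt 6 := e1
  have n2_2 : NormP x2 (genG PP 0) := NormP.step pc mk (n := 1) (by norm_num) (by norm_num) (blk 0 1 6 (by norm_num) (by norm_num) (by decide +kernel)) (by norm_num) (by decide +kernel) n2_1 f2_1
  have c0 : x2 (pt 0) = pt 0 := (mem_K11.1 g2).2
  have q0 : x2 (pt 12) = pt 12 := by
    refine NormP.fixFc (n := 4) (I := look24 Ms0 2) (F := ptM [0, 1, 6]) (fun i hi => hp i (by omega)) n2_0 (by decide +kernel) (inv0 g2 n2_0 u0_2 s0_2) (fix_ptM (l := [0, 1, 6]) (by decide) (by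
      intro a ha
      simp only [List.mem_cons, List.not_mem_nil, or_false] at ha
      rcases ha with rfl | rfl | rfl
      · exact c0
      · exact f2_0
      · exact f2_1))
  have q1 : x2 (pt 3) = pt 3 := by
    refine NormP.fixFc (n := 1) (I := look24 Ms0 0) (F := ptM [0, 1, 6, 12]) (fun i hi => hp i (by omega)) n2_1 (by decide +kernel) (inv0 g2 n2_0 u0_0 s0_0) (fix_ptM (l := [0, 1, 6, 12]) (by decide) (by
      intro a ha
      simp only [List.mem_cons, List.not_mem_nil, or_false] at ha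
      rcases ha with rfl | rfl | rfl | rfl
      · exact c0
      · exact f2_0
      · exact f2_1
      · exact q0))
  have q2 : x2 (pt 18) = pt 18 := by
    refine NormP.fixFc (n := 0) (I := look24 Ms0 1) (F := ptM [0, 1, 3, 6, 12]) (fun i hi => hp i (by omega)) (NormP.zero _ _) (by decide +kernel) (inv0 g2 n2_0 u0_1 s0_1) (fix_ptM (l := [0, 1, 3, 6, 12]) (by decide) (by
      intro a ha
      simp only [List.mem_cons, List.not_mem_nil, or_false] at ha
      rcases ha with rfl | rfl | rfl | rfl | rfl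
      · exact c0
      · exact f2_0
      · exact q1
      · exact f2_1
      · exact q0))
  have hy : x2 = 1 := by
    apply K12_eq_one ((mem_K11.1 g2).1) [pt 0, pt 1, pt 3, pt 6, pt 12]
    · simp only [List.nodup_cons, List.mem_cons, List.not_mem_nil, or_false, not_or, List.nodup_nil, not_false_iff, and_true]
      refine ⟨⟨?_, ?_, ?_, ?_⟩, ⟨?_, ?_, ?_⟩, ⟨?_, ?_⟩, ?_⟩ <;> exact fun e => absurd (pt_inj (by norm_num) (by norm_num) e) (by norm_num)
    · rfl
    · intro q hq
      simp only [List.mem_cons, List.not_mem_nil, or_false] at hq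
      rcases hq with rfl | rfl | rfl | rfl | rfl <;> exact (mem_S_pt (by norm_num)).2 (by decide +kernel)
    · intro q hq
      simp only [List.mem_cons, List.not_mem_nil, or_false] at hq
      rcases hq with rfl | rfl | rfl | rfl | rfl
      · exact c0
      · exact f2_0
      · exact q1
      · exact f2_1
      · exact q0
  have hx2 : k1 * k0 * x = 1 := by
    rw [← hy, hx2, hx1]; simp only [mul_assoc]
  rw [eq_inv_of_mul_eq_one_right hx2]
  apply Subgroup.inv_mem
  exact Subgroup.mul_mem _ (genG_mono (by norm_num) hk1) (genG_mono (by norm_num) hk0)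

/-- data -/
def DL : ℕ := 0x52cb689aa13d08c9bc62bc9d06a500bd6cb998a87b92ca1db054a240886052caea4a643c42cadc4379ac96c1007cdcbac8a8bda0c89da951a8120c407cdd4b1a30bd50c2a92d3c96320440bdaa57196d7ce0c89d0954a8219020bdab49ca307b9ac5a928398a418820bd6d174a897cd0c2aa0d3996209060
/-- data -/
def DG : ℕ := 0x7cdd6a32b03c4465a924bc8a168d008da6bba4a153e50750463b2a468d007a8f35b1c8ac6412d926b8e84809a0bdab49ca307b9ac5a928398a418820
/-- data -/
def DS : ℕ := 0x205000002000003010400000203000201000001010000000000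
/-- data -/
def WL : ℕ := 0x8008090140400400
/-- data -/
def GI : ℕ := 0x7030602
/-- data -/
def zz : ℕ := 0xbd6d174a897cd0c2aa0d3996209060
theorem ctr : ctrOK PP zz 4 = true := by decide +kernel
theorem der : derOK PP 4 DL DG DS WL inG 7 = true := by decide +kernel
theorem gin : genIn PP 4 DL GI 7 = true := by decide +kernel
theorem DL0 : Nat.beq (pk DL 0) zz = true := by decide +kernel

theorem main (S : Sylow 2 (chn K12 g12B 1)) : (groupFusionSystem (S : Subgroup (chn K12 g12B 1))).IsSimple 2 ∧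
      Subgroup.normalizer ((S : Subgroup (chn K12 g12B 1)) : Set (chn K12 g12B 1)) = (S : Subgroup (chn K12 g12B 1)) := by
  refine fusion_cert (k := 4) (m := 495) pc mk (by norm_num) (by rw [card_chn1]; norm_num) (by norm_num) le_G
    (fun x hx hN => norm_self x hx hN) ctr ?_ S
  intro T _ hz hcl
  have h0 := beq_iff.1 DL0
  refine strong_top pc inG_spec der gin hcl ?_
  rw [h0]
  exact ⟨by decide +kernel, hz⟩

end Cfsg.Agent.H9.SyM11
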