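import Cfsg.Agent.H9.Syl2
import Cfsg.Agent.H9.Mathieu
set_option autoImplicit false

/-! Sylow 2-subgroup of M12 (generated). -/

namespace Cfsg.Agent.H9.SyM12
open Cfsg Cfsg.Agent.H9
open scoped Pointwise

/-- data -/
def PP : ℕ := 0x8aa6ba92e073cc3a59092b4f260450bbeb45b5c6b464c99d09540a4008232beb498ce6b28045b9288c2ec9082db5e9598ce42b9a65a9098b1f090820b1573ac8e4ba9b0a38228b1e61a5002be955ca26b39a49a9093c2ec18440
/-- data -/
def WT : ℕ := 0xc02018078090000000000000000000000000000000200c00c0100000000000000000000000000000000004008010000000000000000000000000000000000000c0100000000000000000000000000000000000004010000000000000000000000000000000000000000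
/-- data -/
def MT : ℕ := 0x42009002001000001000008001010000010
/-- data -/
def BT : ℕ := 0xc84
/-- data -/
def I0 : ℕ := 0x5335f
/-- data -/
def Ms0 : ℕ := 0x306053059
/-- data -/
def Rs0 : ℕ := 0x20
/-- data -/
def Wd0 : ℕ := 0x180002000000020300000000c0200028000380400100000
/-- membership test -/
noncomputable def inG (P : ℕ) : Bool := band (checkM24 P) (Nat.beq (imgM P dod0) dod0)

theorem inG_spec (P : ℕ) (h : inG P = true) : isPerm P = true ∧ toPerm P ∈ K12 :=
  ⟨checkM24_perm (band_iff.1 h).1, mem_of_mask_check h⟩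

theorem pc : pcOK PP WT 6 = true := by decide +kernel
theorem mk : mkOK PP MT BT 6 = true := by decide +kernel
theorem gen_in : allN (fun j => inG (pk PP j)) 6 = true := by decide +kernel
theorem le_G : genG PP 6 ≤ K12 := genG_le (fun i hi => (inG_spec _ ((allN_iff _ _).1 gen_in i hi)).2)

theorem orb0 : orbsOK PP 6 I0 2 Ms0 Rs0 Wd0 = true := by decide +kernel
theorem dom {x : Equiv.Perm GolayPt} (hx : x ∈ K12) : ∀ q ∈ S I0, x q ∈ S I0 := by
  have : I0 = dod0 := by decide +kernel
  rw [this]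
  exact fun _ hq => (K12_inv hx).2 hq

theorem u0_0 : uniqOK Ms0 2 0 = true := by decide +kernel
theorem s0_0 : Nat.beq (Nat.land (look24 Ms0 0) I0) (look24 Ms0 0) = true := by decide +kernel
theorem hp (i : ℕ) (hi : i < 6) : isPerm (pk PP i) = true := pc_perm pc hi

theorem inv0 {x : Equiv.Perm GolayPt} (hx : x ∈ K12) (hN : NormP x (genG PP 6)) {j : ℕ} (hu : uniqOK Ms0 2 j = true)
    (hs : Nat.beq (Nat.land (look24 Ms0 j) I0) (look24 Ms0 j) = true) : ∀ q ∈ S (look24 Ms0 j), x q ∈ S (look24 Ms0 j) :=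
  hN.inv hp orb0 hu (dom hx) hs

/-- data -/
def Ms1 : ℕ := 0x2000011050040008000001
/-- data -/
def Rs1 : ℕ := 0x69060
/-- data -/
def Wd1 : ℕ := 0x4000030000000001000000000000002000000000000000
theorem orb1 : orbsOK PP 3 (look24 Ms0 0) 4 Ms1 Rs1 Wd1 = true := by decide +kernel
theorem u1 : uniqOK Ms1 4 1 = true := by decide +kernel
theorem s1 : Nat.beq (Nat.land (look24 Ms1 1) (look24 Ms0 0)) (look24 Ms1 1) = true := by decide +kernel
/-- data -/
def Ms2 : ℕ := 0x40000002000011050000008000001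
/-- data -/
def Rs2 : ℕ := 0x1269060
/-- data -/
def Wd2 : ℕ := 0x30000000001000000000000002000000000000000
theorem orb2 : orbsOK PP 2 (look24 Ms0 0) 5 Ms2 Rs2 Wd2 = true := by decide +kernel
theorem u2 : uniqOK Ms2 5 2 = true := by decide +kernel
theorem s2 : Nat.beq (Nat.land (look24 Ms2 2) (look24 Ms0 0)) (look24 Ms2 2) = true := by decide +kernel
set_option maxRecDepth 100000 in
theorem norm_self (x : Equiv.Perm GolayPt) (hx : x ∈ K12) (hN : NormP x (genG PP 6)) : x ∈ genG PP 6 := by
  have blk : ∀ (s n b : ℕ), s ≤ n → n ≤ 6 → allN (fun j => @Bool.rec (fun _ => Bool) (Nat.beq (lookW 5 31 BT j) b) true (Nat.blt j s)) n = true → ∀ j, s ≤ j → j < n → lookW 5 31 BT j = b := by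
    intro s n b _ _ h j h1 h2
    have h3 := (allN_iff _ _).1 h j h2
    rcases (brec_true _ _).1 h3 with h4 | h4
    · exfalso; have : j < s := by simpa [Nat.blt] using h4
      omega
    · exact beq_iff.1 h4
  have g0 := hx
  have n0_0 := hN
  obtain ⟨k0, hk0, e0⟩ := n0_0.move hp orb0 u0_0 (dom g0) s0_0 (a := pt 0) ((mem_S_pt (by norm_num)).2 (by decide +kernel))
  set x1 := k0 * x with hx1
  have g1 : x1 ∈ K12 := K12.mul_mem (le_G (genG_mono (by norm_num) hk0)) g0
  have n1_0 : NormP x1 (genG PP 6) := (NormP.of_mem (genG_mono (by norm_num) hk0)).mul n0_0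
  have f1_0 : x1 (pt 0) = pt 0 := e0
  have n1_1 : NormP x1 (genG PP 3) := NormP.step pc mk (n := 6) (by norm_num) (by norm_num) (blk 3 6 0 (by norm_num) (by norm_num) (by decide +kernel)) (by norm_num) (by decide +kernel) n1_0 f1_0
  obtain ⟨k1, hk1, e1⟩ := n1_1.move (fun i hi => hp i (by omega)) orb1 u1 (inv0 g1 n1_0 u0_0 s0_0) s1 (a := pt 3) ((mem_S_pt (by norm_num)).2 (by decide +kernel))
  set x2 := k1 * x1 with hx2
  have g2 : x2 ∈ K12 := K12.mul_mem (le_G (genG_mono (by norm_num) hk1)) g1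
  have n2_0 : NormP x2 (genG PP 6) := (NormP.of_mem (genG_mono (by norm_num) hk1)).mul n1_0
  have n2_1 : NormP x2 (genG PP 3) := (NormP.of_mem (genG_mono (by norm_num) hk1)).mul n1_1
  have f2_0 : x2 (pt 0) = pt 0 := by
    rw [hx2, Equiv.Perm.mul_apply, f1_0]; exact genG_fix (fun i hi => hp i (by omega)) (by norm_num) (by decide +kernel) _ hk1
  have f2_1 : x2 (pt 3) = pt 3 := e1
  have n2_2 : NormP x2 (genG PP 2) := NormP.step pc mk (n := 3) (by norm_num) (by norm_num) (blk 2 3 3 (by norm_num) (by norm_num) (by decide +kernel)) (by norm_num) (by decide +kernel) n2_1 f2_1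
  obtain ⟨k2, hk2, e2⟩ := n2_2.move (fun i hi => hp i (by omega)) orb2 u2 (inv0 g2 n2_0 u0_0 s0_0) s2 (a := pt 4) ((mem_S_pt (by norm_num)).2 (by decide +kernel))
  set x3 := k2 * x2 with hx3
  have g3 : x3 ∈ K12 := K12.mul_mem (le_G (genG_mono (by norm_num) hk2)) g2
  have n3_0 : NormP x3 (genG PP 6) := (NormP.of_mem (genG_mono (by norm_num) hk2)).mul n2_0
  have n3_1 : NormP x3 (genG PP 3) := (NormP.of_mem (genG_mono (by norm_num) hk2)).mul n2_1
  have n3_2 : NormP x3 (genG PP 2) := (NormP.of_mem (genG_mono (by norm_num) hk2)).mul n2_2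
  have f3_0 : x3 (pt 0) = pt 0 := by
    rw [hx3, Equiv.Perm.mul_apply, f2_0]; exact genG_fix (fun i hi => hp i (by omega)) (by norm_num) (by decide +kernel) _ hk2
  have f3_1 : x3 (pt 3) = pt 3 := by
    rw [hx3, Equiv.Perm.mul_apply, f2_1]; exact genG_fix (fun i hi => hp i (by omega)) (by norm_num) (by decide +kernel) _ hk2
  have f3_2 : x3 (pt 4) = pt 4 := e2
  have n3_3 : NormP x3 (genG PP 0) := NormP.step pc mk (n := 2) (by norm_num) (by norm_num) (blk 0 2 4 (by norm_num) (by norm_num) (by decide +kernel)) (by norm_num) (by decide +kernel) n3_2 f3_2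
  have q0 : x3 (pt 13) = pt 13 := by
    refine NormP.fixFc (n := 3) (I := look24 Ms0 0) (F := ptM [0, 3, 4]) (fun i hi => hp i (by omega)) n3_1 (by decide +kernel) (inv0 g3 n3_0 u0_0 s0_0) (fix_ptM (l := [0, 3, 4]) (by decide) (by
      intro a ha
      simp only [List.mem_cons, List.not_mem_nil, or_false] at ha
      rcases ha with rfl | rfl | rfl
      · exact f3_0
      · exact f3_1
      · exact f3_2))
  have q1 : x3 (pt 18) = pt 18 := NormP.fixOc (n := 6) (s := 3) (a := 0) (a2 := 13) (ra := 3) (ra2 := 18) (e := 16) pc mk (by norm_num) (by norm_num) (blk 3 6 0 (by norm_num) (by norm_num) (by decide +kernel)) n3_0 (by decide +kernel) f3_0 q0 f3_1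
  have q2 : x3 (pt 12) = pt 12 := NormP.fixOc (n := 6) (s := 3) (a := 0) (a2 := 13) (ra := 4) (ra2 := 12) (e := 60) pc mk (by norm_num) (by norm_num) (blk 3 6 0 (by norm_num) (by norm_num) (by decide +kernel)) n3_0 (by decide +kernel) f3_0 q0 f3_2
  have hy : x3 = 1 := by
    apply K12_eq_one g3 [pt 0, pt 3, pt 4, pt 12, pt 13]
    · simp only [List.nodup_cons, List.mem_cons, List.not_mem_nil, or_false, not_or, List.nodup_nil, not_false_iff, and_true]
      refine ⟨⟨?_, ?_, ?_, ?_⟩, ⟨?_, ?_, ?_⟩, ⟨?_, ?_⟩, ?_⟩ <;> exact fun e => absurd (pt_inj (by norm_num) (by norm_num) e) (by norm_num)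
    · rfl
    · intro q hq
      simp only [List.mem_cons, List.not_mem_nil, or_false] at hq
      rcases hq with rfl | rfl | rfl | rfl | rfl <;> exact (mem_S_pt (by norm_num)).2 (by decide +kernel)
    · intro q hq
      simp only [List.mem_cons, List.not_mem_nil, or_false] at hq
      rcases hq with rfl | rfl | rfl | rfl | rfl
      · exact f3_0
      · exact f3_1
      · exact f3_2
      · exact q2
      · exact q0
  have hx2 : k2 * k1 * k0 * x = 1 := by
    rw [← hy, hx3, hx2, hx1]; simp only [mul_assoc]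
  rw [eq_inv_of_mul_eq_one_right hx2]
  apply Subgroup.inv_mem
  exact Subgroup.mul_mem _ (Subgroup.mul_mem _ (genG_mono (by norm_num) hk2) (genG_mono (by norm_num) hk1)) (genG_mono (by norm_num) hk0)

/-- data -/
def DL : ℕ := 0x8aa6ba92e073cc3a59092b4f260450b5d73a354c29e50ac441711e602503b1573ac8e4ba9b0a38228b1e61a500bbd73a0e30b29a4ab822398ac92120bbeb45b5c6b464c99d09540a400823b5e9598ce42b9a65a9098b1f0908202be955ca26b39a49a9093c2ec18440bdab49ca307b9ac5a928398a4188202beb498ce6b28045b9288c2ec9082d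
/-- data -/
def DG : ℕ := 0xb28b3ab1c25dc613bd208ca846a2067d225b89d29d5893ada650ec1440043aea5a36c39c526bb82478150909882de6b5228cb1c7074441a99e4481b22bcf17268cb4c3052e43a92e6401a2bdab49ca307b9ac5a928398a418820
/-- data -/
def DS : ℕ := 0x5010700000406000005030004010000030100000201000001010000000000
/-- data -/
def WL : ℕ := 0x8013008060400400400
/-- data -/
def GI : ℕ := 0x80400030602
/-- data -/
def zz : ℕ := 0x2beb498ce6b28045b9288c2ec9082d
theorem ctr : ctrOK PP zz 6 = true := by decide +kernel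
theorem der : derOK PP 6 DL DG DS WL inG 8 = true := by decide +kernel
theorem gin : genIn PP 6 DL GI 8 = true := by decide +kernel
theorem DL0 : Nat.beq (pk DL 0) zz = true := by decide +kernel

theorem main (S : Sylow 2 K12) : (groupFusionSystem (S : Subgroup K12)).IsSimple 2 ∧
      Subgroup.normalizer ((S : Subgroup K12) : Set K12) = (S : Subgroup K12) := by
  refine fusion_cert (k := 6) (m := 1485) pc mk (by norm_num) (by rw [card_K12]; norm_num) (by norm_num) le_G
    (fun x hx hN => norm_self x hx hN) ctr ?_ S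
  intro T _ hz hcl
  have h0 := beq_iff.1 DL0
  refine strong_top pc inG_spec der gin hcl ?_
  rw [h0]
  exact ⟨by decide +kernel, hz⟩

end Cfsg.Agent.H9.SyM12
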