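import Cfsg.Agent.H9.Syl2
import Cfsg.Agent.H9.Mathieu
set_option autoImplicit false

/-! Sylow 2-subgroup of M22 (generated). -/

namespace Cfsg.Agent.H9.SyM22
open Cfsg Cfsg.Agent.H9
open scoped Pointwise

/-- data -/
def PP : ℕ := 0xbda959c9e48ac29729862a0f0189a0bd8909c8b4385666a9097b235189c0b88cf54961a21ac8ccee4d4a41da00bcd8fb0db0a3a3522828394cb90920bcdb4b0d877a2b12a92e8116690820bcd6fb48d0a20a4a892e3c5ac1a820b8a2854ab073c8534d343ad8d1d820
/-- data -/
def WT : ℕ := 0x80010ec3707c1000000000000000000000000000000d010080381c0000000000000000000000000000000180a008010000000000000000000000000000000000400803000000000000000000000000000000000000080300000000000000000000000000000000000000010000000000000000000000000000000000000000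
/-- data -/
def MT : ℕ := 0x11c382010282000202000002000080400004000004
/-- data -/
def BT : ℕ := 0x42109c42
/-- data -/
def I0 : ℕ := 0x7ffffe
/-- data -/
def Ms0 : ℕ := 0x4000848040433fbf2
/-- data -/
def Rs0 : ℕ := 0xc41
/-- data -/
def Wd0 : ℕ := 0x11c03000c041e0100e02010048180020202806068160500000000000
/-- membership test -/
noncomputable def inG (P : ℕ) : Bool := band (checkM24 P) (band (Nat.beq (im P 23) 23) (Nat.beq (im P 0) 0))

theorem inG_spec (P : ℕ) (h : inG P = true) : isPerm P = true ∧ toPerm P ∈ (Hc 2) := by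
  rw [inG, band_iff, band_iff, beq_iff, beq_iff] at h
  refine ⟨checkM24_perm h.1, mem_Hc.2 ⟨checkM24_mem h.1, fun j hj => ?_⟩⟩
  have : j = 0 ∨ j = 1 := by omega
  rcases this with rfl | rfl
  · rw [B0_pt, toPerm_pt (checkM24_perm h.1) (by norm_num), h.2.1]
  · rw [B1_pt, toPerm_pt (checkM24_perm h.1) (by norm_num), h.2.2]

theorem pc : pcOK PP WT 7 = true := by decide +kernel
theorem mk : mkOK PP MT BT 7 = true := by decide +kernel
theorem gen_in : allN (fun j => inG (pk PP j)) 7 = true := by decide +kernel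
theorem le_G : genG PP 7 ≤ (Hc 2) := genG_le (fun i hi => (inG_spec _ ((allN_iff _ _).1 gen_in i hi)).2)

theorem orb0 : orbsOK PP 7 I0 3 Ms0 Rs0 Wd0 = true := by decide +kernel
theorem dom {x : Equiv.Perm GolayPt} (hx : x ∈ (Hc 2)) : ∀ q ∈ S I0, x q ∈ S I0 := by
  have e : ∀ q, q ∈ S I0 ↔ ¬ (q = B 0 ∨ q = B 1) := by
    intro q
    have : I0 = (2 ^ 23 ||| 2 ^ 0) ^^^ 16777215 := by decide +kernel
    rw [this, S_compl, S_or, S_two_pow (by norm_num), S_two_pow (by norm_num), Finset.mem_compl, Finset.mem_union,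
      Finset.mem_singleton, Finset.mem_singleton, ← B0_pt, ← B1_pt]
  have h0 := (mem_Hc.1 hx).2 0 (by norm_num)
  have h1 := (mem_Hc.1 hx).2 1 (by norm_num)
  intro q hq
  rw [e] at hq ⊢
  rintro (h | h)
  · exact hq (Or.inl (x.injective (h.trans h0.symm)))
  · exact hq (Or.inr (x.injective (h.trans h1.symm)))

theorem u0_0 : uniqOK Ms0 3 0 = true := by decide +kernel
theorem s0_0 : Nat.beq (Nat.land (look24 Ms0 0) I0) (look24 Ms0 0) = true := by decide +kernel
theorem u0_1 : uniqOK Ms0 3 1 = true := by decide +kernel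
theorem s0_1 : Nat.beq (Nat.land (look24 Ms0 1) I0) (look24 Ms0 1) = true := by decide +kernel
theorem hp (i : ℕ) (hi : i < 7) : isPerm (pk PP i) = true := pc_perm pc hi

theorem inv0 {x : Equiv.Perm GolayPt} (hx : x ∈ (Hc 2)) (hN : NormP x (genG PP 7)) {j : ℕ} (hu : uniqOK Ms0 3 j = true)
    (hs : Nat.beq (Nat.land (look24 Ms0 j) I0) (look24 Ms0 j) = true) : ∀ q ∈ S (look24 Ms0 j), x q ∈ S (look24 Ms0 j) :=
  hN.inv hp orb0 hu (dom hx) hs

/-- data -/
def Ms1 : ℕ := 0x20010c100010080223870000002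
/-- data -/
def Rs1 : ℕ := 0x941c81
/-- data -/
def Wd1 : ℕ := 0x1401000000180400c020040201c00000000000400c000000000000
theorem orb1 : orbsOK PP 3 (look24 Ms0 0) 5 Ms1 Rs1 Wd1 = true := by decide +kernel
theorem u1 : uniqOK Ms1 5 2 = true := by decide +kernel
theorem s1 : Nat.beq (Nat.land (look24 Ms1 2) (look24 Ms0 0)) (look24 Ms1 2) = true := by decide +kernel
/-- data -/
def Ms2 : ℕ := 0x480404
/-- data -/
def Rs2 : ℕ := 0x2
/-- data -/
def Wd2 : ℕ := 0x10000000c00000000000000000000020000000000000000000000000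
theorem orb2 : orbsOK PP 2 (look24 Ms0 1) 1 Ms2 Rs2 Wd2 = true := by decide +kernel
theorem u2 : uniqOK Ms2 1 0 = true := by decide +kernel
theorem s2 : Nat.beq (Nat.land (look24 Ms2 0) (look24 Ms0 1)) (look24 Ms2 0) = true := by decide +kernel
theorem run : fixRun (ptM [0, 1, 2, 7, 9, 16, 23]) [(12656663, 11608708, 11608708, 13), (12656663, 12587685, 12587685, 22), (12656663, 12656663, 12656663, 4), (14254209, 5709954, 5709954, 20), (11608708, 11608708, 11608708, 21), (13938692, 1302533, 1302533, 15), (7438406, 7438406, 7438406, 6), (14254209, 14254209, 14254209, 19), (16262146, 16262146, 16262146, 10), (4845570, 13938692, 13938692, 12), (4845570, 4845570, 4845570, 14), (13938692, 13938692, 13938692, 18), (13062145, 13062145, 13062145, 17), (7221256, 7221256, 7221256, 3), (11952160, 11952160, 11952160, 5), (4038912, 4038912, 4038912, 8), (14919680, 14919680, 14919680, 11)] = 16777215 := by decide +kernel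

set_option maxRecDepth 100000 in
theorem norm_self (x : Equiv.Perm GolayPt) (hx : x ∈ (Hc 2)) (hN : NormP x (genG PP 7)) : x ∈ genG PP 7 := by
  have blk : ∀ (s n b : ℕ), s ≤ n → n ≤ 7 → allN (fun j => @Bool.rec (fun _ => Bool) (Nat.beq (lookW 5 31 BT j) b) true (Nat.blt j s)) n = true → ∀ j, s ≤ j → j < n → lookW 5 31 BT j = b := by
    intro s n b _ _ h j h1 h2
    have h3 := (allN_iff _ _).1 h j h2
    rcases (brec_true _ _).1 h3 with h4 | h4
    · exfalso; have : j < s := by simpa [Nat.blt] using h4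
      omega
    · exact beq_iff.1 h4
  have g0 := hx
  have n0_0 := hN
  obtain ⟨k0, hk0, e0⟩ := n0_0.move hp orb0 u0_0 (dom g0) s0_0 (a := pt 1) ((mem_S_pt (by norm_num)).2 (by decide +kernel))
  set x1 := k0 * x with hx1
  have g1 : x1 ∈ (Hc 2) := (Hc 2).mul_mem (le_G (genG_mono (by norm_num) hk0)) g0
  have n1_0 : NormP x1 (genG PP 7) := (NormP.of_mem (genG_mono (by norm_num) hk0)).mul n0_0
  have f1_0 : x1 (pt 1) = pt 1 := e0
  have n1_1 : NormP x1 (genG PP 3) := NormP.step pc mk (n := 7) (by norm_num) (by norm_num) (blk 3 7 1 (by norm_num) (by norm_num) (by decide +kernel)) (by norm_num) (by decide +kernel) n1_0 f1_0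
  obtain ⟨k1, hk1, e1⟩ := n1_1.move (fun i hi => hp i (by omega)) orb1 u1 (inv0 g1 n1_0 u0_0 s0_0) s1 (a := pt 7) ((mem_S_pt (by norm_num)).2 (by decide +kernel))
  set x2 := k1 * x1 with hx2
  have g2 : x2 ∈ (Hc 2) := (Hc 2).mul_mem (le_G (genG_mono (by norm_num) hk1)) g1
  have n2_0 : NormP x2 (genG PP 7) := (NormP.of_mem (genG_mono (by norm_num) hk1)).mul n1_0
  have n2_1 : NormP x2 (genG PP 3) := (NormP.of_mem (genG_mono (by norm_num) hk1)).mul n1_1
  have f2_0 : x2 (pt 1) = pt 1 := by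
    rw [hx2, Equiv.Perm.mul_apply, f1_0]; exact genG_fix (fun i hi => hp i (by omega)) (by norm_num) (by decide +kernel) _ hk1
  have f2_1 : x2 (pt 7) = pt 7 := e1
  have n2_2 : NormP x2 (genG PP 2) := NormP.step pc mk (n := 3) (by norm_num) (by norm_num) (blk 2 3 7 (by norm_num) (by norm_num) (by decide +kernel)) (by norm_num) (by decide +kernel) n2_1 f2_1
  obtain ⟨k2, hk2, e2⟩ := n2_2.move (fun i hi => hp i (by omega)) orb2 u2 (inv0 g2 n2_0 u0_1 s0_1) s2 (a := pt 2) ((mem_S_pt (by norm_num)).2 (by decide +kernel))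
  set x3 := k2 * x2 with hx3
  have g3 : x3 ∈ (Hc 2) := (Hc 2).mul_mem (le_G (genG_mono (by norm_num) hk2)) g2
  have n3_0 : NormP x3 (genG PP 7) := (NormP.of_mem (genG_mono (by norm_num) hk2)).mul n2_0
  have n3_1 : NormP x3 (genG PP 3) := (NormP.of_mem (genG_mono (by norm_num) hk2)).mul n2_1
  have n3_2 : NormP x3 (genG PP 2) := (NormP.of_mem (genG_mono (by norm_num) hk2)).mul n2_2
  have f3_0 : x3 (pt 1) = pt 1 := by
    rw [hx3, Equiv.Perm.mul_apply, f2_0]; exact genG_fix (fun i hi => hp i (by omega)) (by norm_num) (by decide +kernel) _ hk2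
  have f3_1 : x3 (pt 7) = pt 7 := by
    rw [hx3, Equiv.Perm.mul_apply, f2_1]; exact genG_fix (fun i hi => hp i (by omega)) (by norm_num) (by decide +kernel) _ hk2
  have f3_2 : x3 (pt 2) = pt 2 := e2
  have n3_3 : NormP x3 (genG PP 0) := NormP.step pc mk (n := 2) (by norm_num) (by norm_num) (blk 0 2 2 (by norm_num) (by norm_num) (by decide +kernel)) (by norm_num) (by decide +kernel) n3_2 f3_2
  have c23 : x3 (pt 23) = pt 23 := by have := (mem_Hc.1 g3).2 0 (by norm_num); rwa [B0_pt] at this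
  have c0 : x3 (pt 0) = pt 0 := by have := (mem_Hc.1 g3).2 1 (by norm_num); rwa [B1_pt] at this
  have q0 : x3 (pt 9) = pt 9 := by
    refine NormP.fixFc (n := 3) (I := look24 Ms0 0) (F := ptM [0, 1, 2, 7, 23]) (fun i hi => hp i (by omega)) n3_1 (by decide +kernel) (inv0 g3 n3_0 u0_0 s0_0) (fix_ptM (l := [0, 1, 2, 7, 23]) (by decide) (by
      intro a ha
      simp only [List.mem_cons, List.not_mem_nil, or_false] at ha
      rcases ha with rfl | rfl | rfl | rfl | rfl
      · exact c0
      · exact f3_0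
      · exact f3_2
      · exact f3_1
      · exact c23))
  have q1 : x3 (pt 16) = pt 16 := NormP.fixOc (n := 7) (s := 3) (a := 1) (a2 := 9) (ra := 7) (ra2 := 16) (e := 30) pc mk (by norm_num) (by norm_num) (blk 3 7 1 (by norm_num) (by norm_num) (by decide +kernel)) n3_0 (by decide +kernel) f3_0 q0 f3_1
  have hy : x3 = 1 := eq_one_of_fixRun ((mem_Hc.1 g3).1) run (fix_ptM (l := [0, 1, 2, 7, 9, 16, 23]) (by decide) (by
      intro a ha
      simp only [List.mem_cons, List.not_mem_nil, or_false] at ha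
      rcases ha with rfl | rfl | rfl | rfl | rfl | rfl | rfl
      · exact c0
      · exact f3_0
      · exact f3_2
      · exact f3_1
      · exact q0
      · exact q1
      · exact c23))
  have hx2 : k2 * k1 * k0 * x = 1 := by
    rw [← hy, hx3, hx2, hx1]; simp only [mul_assoc]
  rw [eq_inv_of_mul_eq_one_right hx2]
  apply Subgroup.inv_mem
  exact Subgroup.mul_mem _ (Subgroup.mul_mem _ (genG_mono (by norm_num) hk2) (genG_mono (by norm_num) hk1)) (genG_mono (by norm_num) hk0)

/-- data -/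
def DL : ℕ := 0xbcd8fb0db0a3a3522828394cb90920bda959c9e48ac29729862a0f0189a0bd8909c8b4385666a9097b235189c0b88cf54961a21ac8ccee4d4a41da00bcdb4b0d877a2b12a92e8116690820bcd6fb48d0a20a4a892e3c5ac1a820b8a2854ab073c8534d343ad8d1d820bdab49ca307b9ac5a928398a418820bda2f9caa7a218d3282e82c8518920
/-- data -/
def DG : ℕ := 0xbd966129cf434e5648818a6b41ce00bd82f9c9d03b0b1a89a6a112850d60b8d489166f718e909235a42c263560bbea7a29b683965884689b0c412640b9d8e84882450d16a6cf5157518660b8e7190546aa08d625f45945681dc0bdab49ca307b9ac5a928398a418820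
/-- data -/
def DS : ℕ := 0x40000060100000501000004010000030100000201000001010000000000
/-- data -/
def WL : ℕ := 0x2040080100100200400
/-- data -/
def GI : ℕ := 0x7060508040302
/-- data -/
def zz : ℕ := 0xbda2f9caa7a218d3282e82c8518920
theorem ctr : ctrOK PP zz 7 = true := by decide +kernel
theorem der : derOK PP 7 DL DG DS WL inG 8 = true := by decide +kernel
theorem gin : genIn PP 7 DL GI 8 = true := by decide +kernel
theorem DL0 : Nat.beq (pk DL 0) zz = true := by decide +kernel

theorem main (S : Sylow 2 (Hc 2)) : (groupFusionSystem (S : Subgroup (Hc 2))).IsSimple 2 ∧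
      Subgroup.normalizer ((S : Subgroup (Hc 2)) : Set (Hc 2)) = (S : Subgroup (Hc 2)) := by
  refine fusion_cert (k := 7) (m := 3465) pc mk (by norm_num) (by rw [card_Hc2]; norm_num) (by norm_num) le_G
    (fun x hx hN => norm_self x hx hN) ctr ?_ S
  intro T _ hz hcl
  have h0 := beq_iff.1 DL0
  refine strong_top pc inG_spec der gin hcl ?_
  rw [h0]
  exact ⟨by decide +kernel, hz⟩

end Cfsg.Agent.H9.SyM22
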