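import Cfsg.Agent.H9.Syl2
import Cfsg.Agent.H9.Mathieu
set_option autoImplicit false

/-! Sylow 2-subgroup of M23 (generated). -/

namespace Cfsg.Agent.H9.SyM23
open Cfsg Cfsg.Agent.H9
open scoped Pointwise

/-- data -/
def PP : ℕ := 0xbd8748ca6479dac4254b714d0a8801bd8144c9457adac746674120608875bd9540c80e7c1ac2d4662216748a71b8aad84a337968c19c28501c45d926b888d1c90b7868c828b1399359d9c0bd9525d22978d8d9d60821827708a0bd8ec0b6237a654291c8a996a80a60
/-- data -/
def WT : ℕ := 0x80100d03803811000000000000000000000000000010010080481d00000000000000000000000000000001008008010000000000000000000000000000000000400402000000000000000000000000000000000000040200000000000000000000000000000000000000010000000000000000000000000000000000000000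
/-- data -/
def MT : ℕ := 0x2205d1020141000041000001000100101000001000
/-- data -/
def BT : ℕ := 0x218c
/-- data -/
def I0 : ℕ := 0x7fffff
/-- data -/
def Ms0 : ℕ := 0x80001430004000042b4ffb
/-- data -/
def Rs0 : ℕ := 0x7b040
/-- data -/
def Wd0 : ℕ := 0x40800114003040680007800800160301c0180e008120281800010000
/-- membership test -/
noncomputable def inG (P : ℕ) : Bool := band (checkM24 P) (Nat.beq (im P 23) 23)

theorem inG_spec (P : ℕ) (h : inG P = true) : isPerm P = true ∧ toPerm P ∈ (Hc 1) := by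
  rw [inG, band_iff, beq_iff] at h
  refine ⟨checkM24_perm h.1, mem_Hc.2 ⟨checkM24_mem h.1, fun j hj => ?_⟩⟩
  have : j = 0 := by omega
  rw [this, B0_pt, toPerm_pt (checkM24_perm h.1) (by norm_num), h.2]

theorem pc : pcOK PP WT 7 = true := by decide +kernel
theorem mk : mkOK PP MT BT 7 = true := by decide +kernel
theorem gen_in : allN (fun j => inG (pk PP j)) 7 = true := by decide +kernel
theorem le_G : genG PP 7 ≤ (Hc 1) := genG_le (fun i hi => (inG_spec _ ((allN_iff _ _).1 gen_in i hi)).2)

theorem orb0 : orbsOK PP 7 I0 4 Ms0 Rs0 Wd0 = true := by decide +kernel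
theorem dom {x : Equiv.Perm GolayPt} (hx : x ∈ (Hc 1)) : ∀ q ∈ S I0, x q ∈ S I0 := by
  have e : ∀ q, q ∈ S I0 ↔ q ≠ B 0 := by
    intro q
    have : I0 = (2 ^ 23) ^^^ 16777215 := by decide +kernel
    rw [this, S_compl, S_two_pow (by norm_num), Finset.mem_compl, Finset.mem_singleton, ← B0_pt]
  have h0 := (mem_Hc.1 hx).2 0 (by norm_num)
  intro q hq
  rw [e] at hq ⊢
  exact fun h => hq (x.injective (h.trans h0.symm))

theorem u0_0 : uniqOK Ms0 4 0 = true := by decide +kernel
theorem s0_0 : Nat.beq (Nat.land (look24 Ms0 0) I0) (look24 Ms0 0) = true := by decide +kernel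
theorem u0_2 : uniqOK Ms0 4 2 = true := by decide +kernel
theorem s0_2 : Nat.beq (Nat.land (look24 Ms0 2) I0) (look24 Ms0 2) = true := by decide +kernel
theorem u0_3 : uniqOK Ms0 4 3 = true := by decide +kernel
theorem s0_3 : Nat.beq (Nat.land (look24 Ms0 3) I0) (look24 Ms0 3) = true := by decide +kernel
theorem hp (i : ℕ) (hi : i < 7) : isPerm (pk PP i) = true := pc_perm pc hi

theorem inv0 {x : Equiv.Perm GolayPt} (hx : x ∈ (Hc 1)) (hN : NormP x (genG PP 7)) {j : ℕ} (hu : uniqOK Ms0 4 j = true)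
    (hs : Nat.beq (Nat.land (look24 Ms0 j) I0) (look24 Ms0 j) = true) : ∀ q ∈ S (look24 Ms0 j), x q ∈ S (look24 Ms0 j) :=
  hN.inv hp orb0 hu (dom hx) hs

/-- data -/
def Ms1 : ℕ := 0x20100000040200490094a2a000001
/-- data -/
def Rs1 : ℕ := 0x831020
/-- data -/
def Wd1 : ℕ := 0xc000040001007000040000000c010180000800008000140000000
theorem orb1 : orbsOK PP 3 (look24 Ms0 0) 5 Ms1 Rs1 Wd1 = true := by decide +kernel
theorem u1 : uniqOK Ms1 5 4 = true := by decide +kernel
theorem s1 : Nat.beq (Nat.land (look24 Ms1 4) (look24 Ms0 0)) (look24 Ms1 4) = true := by decide +kernel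
/-- data -/
def Ms2 : ℕ := 0x143000
/-- data -/
def Rs2 : ℕ := 0xc
/-- data -/
def Wd2 : ℕ := 0x100003000000000000800000000000000000000000000000000
theorem orb2 : orbsOK PP 2 (look24 Ms0 2) 1 Ms2 Rs2 Wd2 = true := by decide +kernel
theorem u2 : uniqOK Ms2 1 0 = true := by decide +kernel
theorem s2 : Nat.beq (Nat.land (look24 Ms2 0) (look24 Ms0 2)) (look24 Ms2 0) = true := by decide +kernel
theorem run : fixRun (ptM [0, 6, 8, 12, 15, 17, 23]) [(2854977, 10916112, 10916112, 21), (14716939, 8581192, 8581192, 3), (14716939, 15864000, 15864000, 22), (14716939, 14716939, 14716939, 1), (12747077, 12747077, 12747077, 2), (13062145, 9347075, 9347075, 18), (6557781, 6557781, 6557781, 4), (15073798, 15073798, 15073798, 9), (2263063, 2263063, 2263063, 11), (13062145, 13811730, 13811730, 14), (13062145, 13062145, 13062145, 16), (13811730, 13811730, 13811730, 20), (13938692, 13938692, 13938692, 13), (4845570, 4845570, 4845570, 19), (11952160, 11952160, 11952160, 5), (2019456, 2019456, 2019456, 7),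 (11654144, 11654144, 11654144, 10)] = 16777215 := by decide +kernel

set_option maxRecDepth 100000 in
theorem norm_self (x : Equiv.Perm GolayPt) (hx : x ∈ (Hc 1)) (hN : NormP x (genG PP 7)) : x ∈ genG PP 7 := by
  have blk : ∀ (s n b : ℕ), s ≤ n → n ≤ 7 → allN (fun j => @Bool.rec (fun _ => Bool) (Nat.beq (lookW 5 31 BT j) b) true (Nat.blt j s)) n = true → ∀ j, s ≤ j → j < n → lookW 5 31 BT j = b := by
    intro s n b _ _ h j h1 h2
    have h3 := (allN_iff _ _).1 h j h2
    rcases (brec_true _ _).1 h3 with h4 | h4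
    · exfalso; have : j < s := by simpa [Nat.blt] using h4
      omega
    · exact beq_iff.1 h4
  have g0 := hx
  have n0_0 := hN
  obtain ⟨k0, hk0, e0⟩ := n0_0.move hp orb0 u0_0 (dom g0) s0_0 (a := pt 0) ((mem_S_pt (by norm_num)).2 (by decide +kernel))
  set x1 := k0 * x with hx1
  have g1 : x1 ∈ (Hc 1) := (Hc 1).mul_mem (le_G (genG_mono (by norm_num) hk0)) g0
  have n1_0 : NormP x1 (genG PP 7) := (NormP.of_mem (genG_mono (by norm_num) hk0)).mul n0_0
  have f1_0 : x1 (pt 0) = pt 0 := e0
  have n1_1 : NormP x1 (genG PP 3) := NormP.step pc mk (n := 7) (by norm_num) (by norm_num) (blk 3 7 0 (by norm_num) (by norm_num) (by decide +kernel)) (by norm_num) (by decide +kernel) n1_0 f1_0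
  obtain ⟨k1, hk1, e1⟩ := n1_1.move (fun i hi => hp i (by omega)) orb1 u1 (inv0 g1 n1_0 u0_0 s0_0) s1 (a := pt 8) ((mem_S_pt (by norm_num)).2 (by decide +kernel))
  set x2 := k1 * x1 with hx2
  have g2 : x2 ∈ (Hc 1) := (Hc 1).mul_mem (le_G (genG_mono (by norm_num) hk1)) g1
  have n2_0 : NormP x2 (genG PP 7) := (NormP.of_mem (genG_mono (by norm_num) hk1)).mul n1_0
  have n2_1 : NormP x2 (genG PP 3) := (NormP.of_mem (genG_mono (by norm_num) hk1)).mul n1_1
  have f2_0 : x2 (pt 0) = pt 0 := by
    rw [hx2, Equiv.Perm.mul_apply, f1_0]; exact genG_fix (fun i hi => hp i (by omega)) (by norm_num) (by decide +kernel) _ hk1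
  have f2_1 : x2 (pt 8) = pt 8 := e1
  have n2_2 : NormP x2 (genG PP 2) := NormP.step pc mk (n := 3) (by norm_num) (by norm_num) (blk 2 3 8 (by norm_num) (by norm_num) (by decide +kernel)) (by norm_num) (by decide +kernel) n2_1 f2_1
  obtain ⟨k2, hk2, e2⟩ := n2_2.move (fun i hi => hp i (by omega)) orb2 u2 (inv0 g2 n2_0 u0_2 s0_2) s2 (a := pt 12) ((mem_S_pt (by norm_num)).2 (by decide +kernel))
  set x3 := k2 * x2 with hx3
  have g3 : x3 ∈ (Hc 1) := (Hc 1).mul_mem (le_G (genG_mono (by norm_num) hk2)) g2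
  have n3_0 : NormP x3 (genG PP 7) := (NormP.of_mem (genG_mono (by norm_num) hk2)).mul n2_0
  have n3_1 : NormP x3 (genG PP 3) := (NormP.of_mem (genG_mono (by norm_num) hk2)).mul n2_1
  have n3_2 : NormP x3 (genG PP 2) := (NormP.of_mem (genG_mono (by norm_num) hk2)).mul n2_2
  have f3_0 : x3 (pt 0) = pt 0 := by
    rw [hx3, Equiv.Perm.mul_apply, f2_0]; exact genG_fix (fun i hi => hp i (by omega)) (by norm_num) (by decide +kernel) _ hk2
  have f3_1 : x3 (pt 8) = pt 8 := by
    rw [hx3, Equiv.Perm.mul_apply, f2_1]; exact genG_fix (fun i hi => hp i (by omega)) (by norm_num) (by decide +kernel) _ hk2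
  have f3_2 : x3 (pt 12) = pt 12 := e2
  have n3_3 : NormP x3 (genG PP 0) := NormP.step pc mk (n := 2) (by norm_num) (by norm_num) (blk 0 2 12 (by norm_num) (by norm_num) (by decide +kernel)) (by norm_num) (by decide +kernel) n3_2 f3_2
  have c23 : x3 (pt 23) = pt 23 := by have := (mem_Hc.1 g3).2 0 (by norm_num); rwa [B0_pt] at this
  have q0 : x3 (pt 15) = pt 15 := by
    refine NormP.fixFc (n := 7) (I := look24 Ms0 3) (F := ptM [0, 8, 12, 23]) (fun i hi => hp i (by omega)) n3_0 (by decide +kernel) (inv0 g3 n3_0 u0_3 s0_3) (fix_ptM (l := [0, 8, 12, 23]) (by decide) (by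
      intro a ha
      simp only [List.mem_cons, List.not_mem_nil, or_false] at ha
      rcases ha with rfl | rfl | rfl | rfl
      · exact f3_0
      · exact f3_1
      · exact f3_2
      · exact c23))
  have q1 : x3 (pt 6) = pt 6 := by
    refine NormP.fixFc (n := 3) (I := look24 Ms0 0) (F := ptM [0, 8, 12, 15, 23]) (fun i hi => hp i (by omega)) n3_1 (by decide +kernel) (inv0 g3 n3_0 u0_0 s0_0) (fix_ptM (l := [0, 8, 12, 15, 23]) (by decide) (by
      intro a ha
      simp only [List.mem_cons, List.not_mem_nil, or_false] at ha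
      rcases ha with rfl | rfl | rfl | rfl | rfl
      · exact f3_0
      · exact f3_1
      · exact f3_2
      · exact q0
      · exact c23))
  have q2 : x3 (pt 17) = pt 17 := NormP.fixOc (n := 7) (s := 3) (a := 0) (a2 := 6) (ra := 8) (ra2 := 17) (e := 27) pc mk (by norm_num) (by norm_num) (blk 3 7 0 (by norm_num) (by norm_num) (by decide +kernel)) n3_0 (by decide +kernel) f3_0 q1 f3_1
  have hy : x3 = 1 := eq_one_of_fixRun ((mem_Hc.1 g3).1) run (fix_ptM (l := [0, 6, 8, 12, 15, 17, 23]) (by decide) (by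
      intro a ha
      simp only [List.mem_cons, List.not_mem_nil, or_false] at ha
      rcases ha with rfl | rfl | rfl | rfl | rfl | rfl | rfl
      · exact f3_0
      · exact q1
      · exact f3_1
      · exact f3_2
      · exact q0
      · exact q2
      · exact c23))
  have hx2 : k2 * k1 * k0 * x = 1 := by
    rw [← hy, hx3, hx2, hx1]; simp only [mul_assoc]
  rw [eq_inv_of_mul_eq_one_right hx2]
  apply Subgroup.inv_mem
  exact Subgroup.mul_mem _ (Subgroup.mul_mem _ (genG_mono (by norm_num) hk2) (genG_mono (by norm_num) hk1)) (genG_mono (by norm_num) hk0)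

/-- data -/
def DL : ℕ := 0xb8aad84a337968c19c28501c45d926bd8748ca6479dac4254b714d0a8801bd8144c9457adac746674120608875bd9540c80e7c1ac2d4662216748a71b888d1c90b7868c828b1399359d9c0bd9525d22978d8d9d60821827708a0bd8ec0b6237a654291c8a996a80a60bdab49ca307b9ac5a928398a418820bd8945c9037a5ac99dd150035808a6
/-- data -/
def DG : ℕ := 0xbd9740c8d36b98f024e550c8888a15bbc3653260692428c0c92ace3ad10ebc96d9bc0860c540d531540e53588eb9d12b1a0e54c0c1346ba14910bea9b820893c6c154d6a4d4e594e96c481bd88f088b5036269d24b6412a3a1c3bdab49ca307b9ac5a928398a418820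
/-- data -/
def DS : ℕ := 0x40000060100000501000004010000030100000201000001010000000000
/-- data -/
def WL : ℕ := 0x2040080100100200400
/-- data -/
def GI : ℕ := 0x7060508040302
/-- data -/
def zz : ℕ := 0xbd8945c9037a5ac99dd150035808a6
theorem ctr : ctrOK PP zz 7 = true := by decide +kernel
theorem der : derOK PP 7 DL DG DS WL inG 8 = true := by decide +kernel
theorem gin : genIn PP 7 DL GI 8 = true := by decide +kernel
theorem DL0 : Nat.beq (pk DL 0) zz = true := by decide +kernel

theorem main (S : Sylow 2 (Hc 1)) : (groupFusionSystem (S : Subgroup (Hc 1))).IsSimple 2 ∧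
      Subgroup.normalizer ((S : Subgroup (Hc 1)) : Set (Hc 1)) = (S : Subgroup (Hc 1)) := by
  refine fusion_cert (k := 7) (m := 79695) pc mk (by norm_num) (by rw [card_Hc1]; norm_num) (by norm_num) le_G
    (fun x hx hN => norm_self x hx hN) ctr ?_ S
  intro T _ hz hcl
  have h0 := beq_iff.1 DL0
  refine strong_top pc inG_spec der gin hcl ?_
  rw [h0]
  exact ⟨by decide +kernel, hz⟩

end Cfsg.Agent.H9.SyM23
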