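import Cfsg.Prelude
set_option autoImplicit false
set_option maxRecDepth 100000
set_option maxHeartbeats 4000000

/-! The ternary Golay code, parametrized by six coordinates. -/

namespace Cfsg.Agent.H9.Tern
open Cfsg

abbrev Z := ZMod 3
abbrev U := Z × Z × Z × Z × Z × Z

def Ph (a b c d e f : Z) : Fin 4 → Fin 3 → Z :=
  ![![f - a - c - d - e, b + c + d + f - a, d - a - b - e - f], ![a + b + d - c - e, a + c + f - b - e, a], ![d + e + f - b - c, b, c], ![d, e, f]]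

def Phi (u : U) : ArrayPt → Z := fun p => Ph u.1 u.2.1 u.2.2.1 u.2.2.2.1 u.2.2.2.2.1 u.2.2.2.2.2 p.1 p.2

def dec (x : ArrayPt → Z) : U := (x (1, 2), x (2, 1), x (2, 2), x (3, 0), x (3, 1), x (3, 2))

theorem dec_Phi (u : U) : dec (Phi u) = u := rfl

theorem Phi_inj : Function.Injective Phi := fun u v h => by rw [← dec_Phi u, h, dec_Phi]

theorem tmem (a b : Z) (t : Fin 4 → Z) (h : a • ![0, 1, 1, 1] + b • ![1, 0, 1, 2] = t) : t ∈ tetracode :=
  Submodule.mem_span_pair.2 ⟨a, b, h⟩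

theorem h3 : (3 : Z) = 0 := by decide

theorem eq_Phi {x : ArrayPt → Z} (hx : x ∈ ternaryGolayCode) : x = Phi (dec x) := by
  obtain ⟨s, hc, ht⟩ := hx
  have c0 := hc 0
  have c1 := hc 1
  have c2 := hc 2
  have c3 := hc 3
  have t00 := ht ![0, 0, 0, 0] (tmem 0 0 _ (by decide))
  have t01 := ht ![1, 0, 1, 2] (tmem 0 1 _ (by decide))
  have t02 := ht ![2, 0, 2, 1] (tmem 0 2 _ (by decide))
  have t10 := ht ![0, 1, 1, 1] (tmem 1 0 _ (by decide))
  have t11 := ht ![1, 1, 2, 0] (tmem 1 1 _ (by decide))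
  have t12 := ht ![2, 1, 0, 2] (tmem 1 2 _ (by decide))
  have t20 := ht ![0, 2, 2, 2] (tmem 2 0 _ (by decide))
  have t21 := ht ![1, 2, 0, 1] (tmem 2 1 _ (by decide))
  have t22 := ht ![2, 2, 1, 0] (tmem 2 2 _ (by decide))
  have sum3 : ∀ g : Z → Z, ∑ r : Z, g r = g 0 + g 1 + g 2 := fun g => Fin.sum_univ_three g
  rw [sum3] at c0 c1 c2 c3
  rw [Fin.sum_univ_four] at t00 t01 t02 t10 t11 t12 t20 t21 t22
  simp only [Matrix.cons_val_zero, Matrix.cons_val_one, Matrix.cons_val] at t00 t01 t02 t10 t11 t12 t20 t21 t22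
  have e12 : s = 0 - x (3, 0) - x (3, 1) - x (3, 2) := by
    linear_combination 2 * c0 + 2 * c2 + 1 * t00 + 1 * t01 + 1 * t02 + ((-1) * x (0, 0) + (-1) * x (0, 1) + (-1) * x (0, 2) + (-1) * x (1, 0) + (-1) * x (2, 0) + (-1) * x (2, 1) + (-1) * x (2, 2)) * h3
  have e0 : x (0, 0) = x (3, 2) - x (1, 2) - x (2, 2) - x (3, 0) - x (3, 1) := by
    linear_combination 1 * c0 + 1 * c1 + 2 * c2 + 1 * t00 + 2 * t01 + 2 * t02 + 2 * t10 + ((-1) * x (0, 0) + (-1) * x (0, 1) + (-1) * x (0, 2) + (-2) * x (1, 0) + (-1) * x (1, 1) + (-1) * x (2, 0) + (-2) * x (2, 1) + (-1) * x (2, 2) + (-1) * x (3, 1) + (-1) * x (3, 2) + (1) * s) * h3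
  have e1 : x (0, 1) = x (2, 1) + x (2, 2) + x (3, 0) + x (3, 2) - x (1, 2) := by
    linear_combination 2 * c0 + 1 * c1 + 1 * c2 + 2 * t00 + 2 * t01 + 1 * t02 + 2 * t10 + ((-2) * x (0, 0) + (-1) * x (0, 1) + (-1) * x (0, 2) + (-2) * x (1, 0) + (-1) * x (1, 1) + (-1) * x (2, 0) + (-2) * x (2, 1) + (-1) * x (2, 2) + (-1) * x (3, 0) + (-1) * x (3, 1) + (-1) * x (3, 2) + (1) * s) * h3
  have e2 : x (0, 2) = x (3, 0) - x (1, 2) - x (2, 1) - x (3, 1) - x (3, 2) := by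
    linear_combination 2 * c0 + 1 * c1 + 1 * c2 + 2 * t00 + 1 * t01 + 2 * t02 + 2 * t10 + ((-2) * x (0, 0) + (-1) * x (0, 1) + (-1) * x (0, 2) + (-2) * x (1, 0) + (-1) * x (1, 1) + (-1) * x (2, 0) + (-1) * x (2, 1) + (-1) * x (2, 2) + (-1) * x (3, 0) + (-1) * x (3, 1) + (1) * s) * h3
  have e3 : x (1, 0) = x (1, 2) + x (2, 1) + x (3, 0) - x (2, 2) - x (3, 1) := by
    linear_combination 2 * c1 + 1 * c2 + 2 * t00 + 1 * t10 + ((-1) * x (0, 0) + (-1) * x (1, 0) + (-1) * x (1, 1) + (-1) * x (1, 2) + (-1) * x (2, 0) + (-1) * x (2, 1) + (-1) * x (3, 0)) * h3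
  have e4 : x (1, 1) = x (1, 2) + x (2, 2) + x (3, 2) - x (2, 1) - x (3, 1) := by
    linear_combination 1 * c0 + 2 * c1 + 2 * t01 + 2 * t02 + 2 * t10 + ((-1) * x (0, 0) + (-1) * x (0, 1) + (-1) * x (0, 2) + (-2) * x (1, 0) + (-1) * x (1, 1) + (-1) * x (1, 2) + (-1) * x (2, 1) + (-1) * x (2, 2) + (-1) * x (3, 1) + (-1) * x (3, 2) + (1) * s) * h3
  have e6 : x (2, 0) = x (3, 0) + x (3, 1) + x (3, 2) - x (2, 1) - x (2, 2) := by
    linear_combination 1 * c0 + 2 * c2 + 2 * t00 + 2 * t01 + 2 * t02 + ((-1) * x (0, 0) + (-1) * x (0, 1) + (-1) * x (0, 2) + (-2) * x (1, 0) + (-1) * x (2, 0) + (-1) * x (2, 1) + (-1) * x (2, 2) + (-1) * x (3, 0) + (-1) * x (3, 1) + (-1) * x (3, 2) + (1) * s) * h3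
  funext p
  obtain ⟨i, r⟩ := p
  have hr : r = 0 ∨ r = 1 ∨ r = 2 := by revert r; decide
  have hi : i = 0 ∨ i = 1 ∨ i = 2 ∨ i = 3 := by revert i; decide
  rcases hi with rfl | rfl | rfl | rfl <;> rcases hr with rfl | rfl | rfl
  · exact e0
  · exact e1
  · exact e2
  · exact e3
  · exact e4
  · rfl
  · exact e6
  · rfl
  · rfl
  · rfl
  · rfl
  · rfl

theorem Phi_add (u v : U) : Phi (u + v) = Phi u + Phi v := by
  obtain ⟨a, b, c, d, e, f⟩ := u
  obtain ⟨a', b', c', d', e', f'⟩ := v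
  funext p
  obtain ⟨i, r⟩ := p
  have hr : r = 0 ∨ r = 1 ∨ r = 2 := by revert r; decide
  have hi : i = 0 ∨ i = 1 ∨ i = 2 ∨ i = 3 := by revert i; decide
  rcases hi with rfl | rfl | rfl | rfl <;> rcases hr with rfl | rfl | rfl
  · show (f + f') - (a + a') - (c + c') - (d + d') - (e + e') = (f - a - c - d - e) + (f' - a' - c' - d' - e'); ring
  · show (b + b') + (c + c') + (d + d') + (f + f') - (a + a') = (b + c + d + f - a) + (b' + c' + d' + f' - a'); ring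
  · show (d + d') - (a + a') - (b + b') - (e + e') - (f + f') = (d - a - b - e - f) + (d' - a' - b' - e' - f'); ring
  · show (a + a') + (b + b') + (d + d') - (c + c') - (e + e') = (a + b + d - c - e) + (a' + b' + d' - c' - e'); ring
  · show (a + a') + (c + c') + (f + f') - (b + b') - (e + e') = (a + c + f - b - e) + (a' + c' + f' - b' - e'); ring
  · rfl
  · show (d + d') + (e + e') + (f + f') - (b + b') - (c + c') = (d + e + f - b - c) + (d' + e' + f' - b' - c'); ring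
  · rfl
  · rfl
  · rfl
  · rfl
  · rfl

theorem gen_mem : ∀ u : U, u = (1, 0, 0, 0, 0, 0) ∨ u = (0, 1, 0, 0, 0, 0) ∨ u = (0, 0, 1, 0, 0, 0) ∨ u = (0, 0, 0, 1, 0, 0) ∨ u = (0, 0, 0, 0, 1, 0) ∨ u = (0, 0, 0, 0, 0, 1) →
    ∃ s : Z, (∀ i : Fin 4, ∑ r : Z, Phi u (i, r) = -s) ∧ ∀ a b : Z, ∑ i : Fin 4, Phi u (i, (a • ![0, 1, 1, 1] + b • ![1, 0, 1, 2] : Fin 4 → Z) i) = s := by
  rintro u (rfl | rfl | rfl | rfl | rfl | rfl) <;> decide +kernel

theorem gen_mem' {u : U} (h : ∃ s : Z, (∀ i : Fin 4, ∑ r : Z, Phi u (i, r) = -s) ∧ ∀ a b : Z, ∑ i : Fin 4, Phi u (i, (a • ![0, 1, 1, 1] + b • ![1, 0, 1, 2] : Fin 4 → Z) i) = s) :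
    Phi u ∈ ternaryGolayCode := by
  obtain ⟨s, h1, h2⟩ := h
  refine ⟨s, h1, ?_⟩
  intro t ht
  obtain ⟨a, b, rfl⟩ := Submodule.mem_span_pair.1 ht
  exact h2 a b

theorem nsmul_mem {u : U} (h : Phi u ∈ ternaryGolayCode) (n : Z) : Phi (n • u) ∈ ternaryGolayCode := by
  have hn : n = 0 ∨ n = 1 ∨ n = 2 := by revert n; decide
  rcases hn with rfl | rfl | rfl
  · rw [zero_smul]
    have : Phi (0 : U) = 0 := by
      have := Phi_add 0 0
      rw [add_zero] at this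
      exact (left_eq_add.1 this)
    rw [this]; exact Submodule.zero_mem _
  · rw [one_smul]; exact h
  · have : (2 : Z) • u = u + u := two_smul _ _
    rw [this, Phi_add]; exact Submodule.add_mem _ h h

theorem Phi_mem (u : U) : Phi u ∈ ternaryGolayCode := by
  obtain ⟨a, b, c, d, e, f⟩ := u
  have h : ((a, b, c, d, e, f) : U) = a • (1, 0, 0, 0, 0, 0) + (b • (0, 1, 0, 0, 0, 0) + (c • (0, 0, 1, 0, 0, 0) + (d • (0, 0, 0, 1, 0, 0) + (e • (0, 0, 0, 0, 1, 0) + f • (0, 0, 0, 0, 0, 1))))) := by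
    simp
  rw [h, Phi_add, Phi_add, Phi_add, Phi_add, Phi_add]
  refine Submodule.add_mem _ (nsmul_mem (gen_mem' (gen_mem _ (by simp))) _) (Submodule.add_mem _ (nsmul_mem (gen_mem' (gen_mem _ (by simp))) _) (Submodule.add_mem _ (nsmul_mem (gen_mem' (gen_mem _ (by simp))) _)
    (Submodule.add_mem _ (nsmul_mem (gen_mem' (gen_mem _ (by simp))) _) (Submodule.add_mem _ (nsmul_mem (gen_mem' (gen_mem _ (by simp))) _) (nsmul_mem (gen_mem' (gen_mem _ (by simp))) _)))))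

theorem mem_iff {x : ArrayPt → Z} : x ∈ ternaryGolayCode ↔ x ∈ Set.range Phi :=
  ⟨fun h => ⟨dec x, (eq_Phi h).symm⟩, by rintro ⟨u, rfl⟩; exact Phi_mem u⟩

/-- weight as an explicit count -/
def nz (z : Z) : ℕ := if z = 0 then 0 else 1

def wt (u : U) : ℕ :=
  ∑ i : Fin 4, (nz (Phi u (i, 0)) + nz (Phi u (i, 1)) + nz (Phi u (i, 2)))

theorem supp_wt (u : U) : (ternarySupport (Phi u)).card = wt u := by
  unfold ternarySupport wt
  rw [Finset.card_filter, Fintype.sum_prod_type]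
  apply Finset.sum_congr rfl
  intro i _
  have sum3 : ∀ g : Z → ℕ, ∑ r : Z, g r = g 0 + g 1 + g 2 := fun g => Fin.sum_univ_three g
  rw [sum3]
  have : ∀ z : Z, (if z ≠ 0 then 1 else 0) = nz z := by intro z; unfold nz; by_cases h : z = 0 <;> simp [h]
  rw [this, this, this]

theorem wts : ∀ u : U, wt u = 0 ∧ u = 0 ∨ wt u = 6 ∨ wt u = 9 ∨ wt u = 12 := by decide +kernel

theorem n6 : (Finset.univ.filter fun u : U => wt u = 6).card = 264 := by decide +kernel
theorem n9 : (Finset.univ.filter fun u : U => wt u = 9).card = 440 := by decide +kernel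
theorem n12 : (Finset.univ.filter fun u : U => wt u = 12).card = 24 := by decide +kernel

theorem count (n : ℕ) : {x : ArrayPt → Z | x ∈ ternaryGolayCode ∧ (ternarySupport x).card = n}.ncard = (Finset.univ.filter fun u : U => wt u = n).card := by
  have : {x : ArrayPt → Z | x ∈ ternaryGolayCode ∧ (ternarySupport x).card = n} = Phi '' ((Finset.univ.filter fun u : U => wt u = n : Finset U) : Set U) := by
    ext x
    constructor
    · rintro ⟨h1, h2⟩
      obtain ⟨u, rfl⟩ := mem_iff.1 h1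
      exact ⟨u, by rw [Finset.coe_filter]; exact ⟨Finset.mem_univ _, by rw [← supp_wt]; exact h2⟩, rfl⟩
    · rintro ⟨u, hu, rfl⟩
      rw [Finset.coe_filter] at hu
      exact ⟨Phi_mem u, by rw [supp_wt]; exact hu.2⟩
  rw [this, Set.ncard_image_of_injective _ Phi_inj, Set.ncard_coe_finset]

theorem card_code : Nat.card ternaryGolayCode = 729 := by
  have h1 : ((ternaryGolayCode : Submodule Z (ArrayPt → Z)) : Set (ArrayPt → Z)) = Set.range Phi := by ext x; exact mem_iff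
  have h2 : Nat.card ternaryGolayCode = ((ternaryGolayCode : Submodule Z (ArrayPt → Z)) : Set (ArrayPt → Z)).ncard := rfl
  rw [h2, h1, ← Set.image_univ, Set.ncard_image_of_injective _ Phi_inj, Set.ncard_univ, Nat.card_eq_fintype_card]
  simp [ZMod.card]

theorem weights {x : ArrayPt → Z} (hx : x ∈ ternaryGolayCode) (h0 : x ≠ 0) :
    (ternarySupport x).card = 6 ∨ (ternarySupport x).card = 9 ∨ (ternarySupport x).card = 12 := by
  obtain ⟨u, rfl⟩ := mem_iff.1 hx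
  rw [supp_wt]
  rcases wts u with h | h
  · exfalso; apply h0
    rw [h.2]
    have := Phi_add 0 0
    rw [add_zero] at this
    exact (left_eq_add.1 this)
  · exact h

end Cfsg.Agent.H9.Tern
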