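import Cfsg.Agent.H9.Tern
set_option autoImplicit false
set_option maxHeartbeats 4000000
set_option maxRecDepth 100000
set_option linter.constructorNameAsVariable false

/-! The hexads of the ternary Golay code. -/

namespace Cfsg.Agent.H9.Tern
open Cfsg

theorem z_cases {a b : Z} (ha : a ≠ 0) (hb : b ≠ 0) : a = b ∨ a = -b := by revert a b; decide

theorem mem_supp {x : ArrayPt → Z} {p : ArrayPt} : p ∈ ternarySupport x ↔ x p ≠ 0 := by simp [ternarySupport]

theorem supp_neg (x : ArrayPt → Z) : ternarySupport (-x) = ternarySupport x := by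
  ext p; rw [mem_supp, mem_supp, Pi.neg_apply, neg_ne_zero]

theorem small {z : ArrayPt → Z} (hz : z ∈ ternaryGolayCode) (h : (ternarySupport z).card ≤ 5) : z = 0 := by
  by_contra h0
  rcases weights hz h0 with h1 | h1 | h1 <;> omega

theorem aux {x y : ArrayPt → Z} (hx : x ∈ ternaryGolayCode) (hy : y ∈ ternaryGolayCode) (h6x : (ternarySupport x).card = 6)
    (h6y : (ternarySupport y).card = 6) {T : Finset ArrayPt} (hT : T.card = 5) (h1 : T ⊆ ternarySupport x) (h2 : T ⊆ ternarySupport y)
    (hA : 3 ≤ (T.filter fun p => x p = y p).card) : x = y := by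
  have hu : (ternarySupport x ∪ ternarySupport y).card ≤ 7 := by
    have h3 := Finset.card_union_add_card_inter (ternarySupport x) (ternarySupport y)
    have h4 : T.card ≤ (ternarySupport x ∩ ternarySupport y).card := Finset.card_le_card (Finset.subset_inter h1 h2)
    omega
  have hsub : ternarySupport (x - y) ⊆ (ternarySupport x ∪ ternarySupport y) \ (T.filter fun p => x p = y p) := by
    intro p hp
    rw [mem_supp, Pi.sub_apply] at hp
    rw [Finset.mem_sdiff, Finset.mem_union, mem_supp, mem_supp, Finset.mem_filter]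
    constructor
    · by_contra hc
      push Not at hc
      apply hp; rw [hc.1, hc.2, sub_zero]
    · rintro ⟨_, h⟩
      apply hp; rw [h, sub_self]
  have hc := Finset.card_le_card hsub
  rw [Finset.card_sdiff_of_subset (fun p hp => Finset.mem_union_left _ (h1 (Finset.mem_filter.1 hp).1))] at hc
  have := small (Submodule.sub_mem _ hx hy) (by omega)
  exact sub_eq_zero.1 this

theorem uniq {x y : ArrayPt → Z} (hx : x ∈ ternaryGolayCode) (hy : y ∈ ternaryGolayCode) (h6x : (ternarySupport x).card = 6)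
    (h6y : (ternarySupport y).card = 6) {T : Finset ArrayPt} (hT : T.card = 5) (h1 : T ⊆ ternarySupport x) (h2 : T ⊆ ternarySupport y) :
    x = y ∨ x = -y := by
  by_cases hA : 3 ≤ (T.filter fun p => x p = y p).card
  · exact Or.inl (aux hx hy h6x h6y hT h1 h2 hA)
  · right
    refine aux hx (Submodule.neg_mem _ hy) h6x (by rw [supp_neg]; exact h6y) hT h1 (by rw [supp_neg]; exact h2) ?_
    have h3 := Finset.card_filter_add_card_filter_not (s := T) (fun p => x p = y p)
    have h4 : (T.filter fun p => ¬ x p = y p).card ≤ (T.filter fun p => x p = (-y) p).card := by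
      apply Finset.card_le_card
      intro p hp
      rw [Finset.mem_filter] at hp ⊢
      exact ⟨hp.1, (z_cases (mem_supp.1 (h1 hp.1)) (mem_supp.1 (h2 hp.1))).resolve_left hp.2⟩
    omega

noncomputable def HF : Finset (Finset ArrayPt) := (Finset.univ.filter fun u : U => wt u = 6).image fun u => ternarySupport (Phi u)

theorem mem_HF {h : Finset ArrayPt} : h ∈ HF ↔ ∃ x ∈ ternaryGolayCode, ternarySupport x = h ∧ h.card = 6 := by
  unfold HF
  rw [Finset.mem_image]
  constructor
  · rintro ⟨u, hu, rfl⟩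
    exact ⟨Phi u, Phi_mem u, rfl, by rw [supp_wt]; exact (Finset.mem_filter.1 hu).2⟩
  · rintro ⟨x, hx, rfl, hc⟩
    obtain ⟨u, rfl⟩ := mem_iff.1 hx
    exact ⟨u, Finset.mem_filter.2 ⟨Finset.mem_univ _, by rw [← supp_wt]; exact hc⟩, rfl⟩

theorem Phi_zero : Phi 0 = 0 := by
  have := Phi_add 0 0
  rw [add_zero] at this
  exact (left_eq_add.1 this)

theorem Phi_neg (u : U) : Phi (-u) = - Phi u := by
  have := Phi_add u (-u)
  rw [add_neg_cancel, Phi_zero] at this
  exact (neg_eq_of_add_eq_zero_right this.symm).symm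

theorem eq_zero_of_neg (u : U) (h : u = -u) : u = 0 := by
  obtain ⟨a, b, c, d, e, f⟩ := u
  have k : ∀ a : Z, a = -a → a = 0 := by decide
  simp only [Prod.neg_mk, Prod.mk.injEq] at h
  obtain ⟨h1, h2, h3, h4, h5, h6⟩ := h
  rw [k _ h1, k _ h2, k _ h3, k _ h4, k _ h5, k _ h6]; rfl

theorem HF_card : HF.card = 132 := by
  have h1 := Finset.card_eq_sum_card_image (fun u => ternarySupport (Phi u)) (Finset.univ.filter fun u : U => wt u = 6)
  rw [n6, Finset.sum_congr rfl (g := fun _ => 2), Finset.sum_const, smul_eq_mul] at h1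
  · unfold HF; omega
  · intro h hh
    rw [Finset.mem_image] at hh
    obtain ⟨u, hu, rfl⟩ := hh
    rw [Finset.card_eq_two]
    have hu6 : (ternarySupport (Phi u)).card = 6 := by rw [supp_wt]; exact (Finset.mem_filter.1 hu).2
    refine ⟨u, -u, ?_, ?_⟩
    · intro h
      have h2 : u = 0 := eq_zero_of_neg u h
      rw [h2, Phi_zero] at hu6
      have : ternarySupport (0 : ArrayPt → Z) = ∅ := by
        ext p; rw [mem_supp]; simp
      rw [this] at hu6; simp at hu6
    · ext v
      rw [Finset.mem_filter, Finset.mem_insert, Finset.mem_singleton]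
      constructor
      · rintro ⟨_, h2⟩
        obtain ⟨T, hT, hT5⟩ := Finset.exists_subset_card_eq (s := ternarySupport (Phi u)) (n := 5) (by omega)
        rcases uniq (Phi_mem u) (Phi_mem v) hu6 (by rw [h2]; exact hu6) hT5 hT (by rw [h2]; exact hT) with h | h
        · left; exact (Phi_inj h).symm
        · right; rw [← Phi_neg] at h
          rw [Phi_inj h, neg_neg]
      · rintro (rfl | rfl)
        · exact ⟨hu, rfl⟩
        · refine ⟨Finset.mem_filter.2 ⟨Finset.mem_univ _, ?_⟩, ?_⟩
          · rw [← supp_wt, Phi_neg, supp_neg]; exact hu6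
          · show ternarySupport (Phi (-u)) = ternarySupport (Phi u)
            rw [Phi_neg, supp_neg]

theorem HF_uniq {h h' : Finset ArrayPt} (hh : h ∈ HF) (hh' : h' ∈ HF) {T : Finset ArrayPt} (hT : T.card = 5) (h1 : T ⊆ h) (h2 : T ⊆ h') : h = h' := by
  obtain ⟨x, hx, rfl, hx6⟩ := mem_HF.1 hh
  obtain ⟨y, hy, rfl, hy6⟩ := mem_HF.1 hh'
  rcases uniq hx hy hx6 hy6 hT h1 h2 with h | h
  · rw [h]
  · rw [h, supp_neg]

theorem cover : (Finset.univ : Finset ArrayPt).powersetCard 5 = HF.biUnion fun h => h.powersetCard 5 := by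
  symm
  apply Finset.eq_of_subset_of_card_le
  · intro T hT
    rw [Finset.mem_biUnion] at hT
    obtain ⟨h, _, hT⟩ := hT
    exact Finset.mem_powersetCard.2 ⟨Finset.subset_univ _, (Finset.mem_powersetCard.1 hT).2⟩
  · rw [Finset.card_biUnion, Finset.sum_congr rfl (g := fun _ => 6), Finset.sum_const, HF_card, Finset.card_powersetCard, Finset.card_univ]
    · have : Fintype.card ArrayPt = 12 := by decide
      rw [this]; decide
    · intro h hh
      obtain ⟨x, _, _, h6⟩ := mem_HF.1 hh
      rw [Finset.card_powersetCard, h6]; rfl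
    · intro h hh h' hh' hne
      rw [Function.onFun, Finset.disjoint_left]
      intro T hT hT'
      rw [Finset.mem_powersetCard] at hT hT'
      exact hne (HF_uniq hh hh' hT.2 hT.1 hT'.1)

theorem exists_hex {T : Finset ArrayPt} (hT : T.card = 5) : ∃ h ∈ HF, T ⊆ h := by
  have h1 : T ∈ (Finset.univ : Finset ArrayPt).powersetCard 5 := Finset.mem_powersetCard.2 ⟨Finset.subset_univ _, hT⟩
  rw [cover, Finset.mem_biUnion] at h1
  obtain ⟨h, hh, hT'⟩ := h1
  exact ⟨h, hh, (Finset.mem_powersetCard.1 hT').1⟩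

theorem set_eq : {h : Finset ArrayPt | ∃ x ∈ ternaryGolayCode, ternarySupport x = h ∧ h.card = 6} = (HF : Set (Finset ArrayPt)) := by
  ext h; rw [Finset.mem_coe, mem_HF]; exact Iff.rfl

end Cfsg.Agent.H9.Tern
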